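import Cfsg.Agent.H7.AM0

/-! `Λ/2Λ` is uniserial for the monomial group; the centralizer of `2 ^ 13`; perfectness of `C(z, s)`. -/

set_option autoImplicit false
set_option linter.unusedSectionVars false
set_option linter.unusedVariables false

namespace H3.AM
open Cfsg H15 H19 H0 H0.Mo H0.Y Subgroup Function H7.AM Finset
open scoped commutatorElement Pointwise

universe u

theorem cf_add (v w : Lam) (i : GolayPt) : cf (v + w) i = cf v i + cf w i := rfl
theorem cf_sub (v w : Lam) (i : GolayPt) : cf (v - w) i = cf v i - cf w i := rfl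
theorem cf_lE (i : GolayPt) : cf lE i = if i = none then 8 else 0 := by
  rw [cf_e8, show pt 23 = none from rfl, Pi.single_apply, mul_one]
/-- `(2 ^ c, 0)` -/
def oL {c : Finset GolayPt} (h : c ∈ cw) : Lam := ⟨oc c ∅, (LC_oc h).mem⟩
theorem cf_oL {c : Finset GolayPt} (h : c ∈ cw) (i : GolayPt) : cf (oL h) i = if i ∈ c then 2 else 0 := by
  change oc c ∅ i = _; simp [oc]
/-- `(-3, 1 ^ 23)` -/
def oD : Lam := ⟨od ∅ none, od_mem cw_empty _⟩
theorem cf_oD (i : GolayPt) : cf oD i = if i = none then -3 else 1 := by change od ∅ none i = _; simp [od]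
theorem cg_two (v u : Lam) : Cg v (v - (u + u)) := ⟨u, by rw [two_smul]; abel⟩
theorem lc (v : Lam) : ∃ m c, LC (cf v) m c := mem_leech.1 v.2

theorem cg16 {u : Lam} (h : ∀ i, 8 ∣ cf u i) (s : 16 ∣ ∑ i, cf u i) : Cg u 0 := by
  choose x hx using h
  simp only [hx, ← mul_sum] at s
  refine cg_zero.2 ⟨⟨fun i => 4 * x i, mem_leech_of_four (fun i => by omega) (by rw [← mul_sum]; omega)⟩,
    Subtype.ext (funext fun i => ?_)⟩
  change cf u i = 4 * x i + 4 * x i
  rw [hx]; ring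

theorem cg8 {u : Lam} (h : ∀ i, 8 ∣ cf u i) : Cg u 0 ∨ Cg u lE := by
  have s : 8 ∣ ∑ i, cf u i := dvd_sum fun i _ => h i
  by_cases e : 16 ∣ ∑ i, cf u i
  · exact .inl (cg16 h e)
  · refine .inr (Cg.sub_zero.1 (cg16 (fun i => ?_) ?_))
    · have := h i
      rw [cf_sub, cf_lE]; split_ifs <;> omega
    · simp only [cf_sub, sum_sub_distrib, cf_lE, sum_ite_eq', mem_univ, if_true]; omega

/-- all coordinates have the same parity -/
theorem par {v : Lam} {i : GolayPt} (h : 2 ∣ cf v i) (j : GolayPt) : 2 ∣ cf v j := by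
  obtain ⟨m, c, l⟩ := lc v
  have a := l.res i; have b := l.res j; have := l.par
  split_ifs at a b <;> omega

section
variable {W : AddSubgroup Lam} (h2 : ∀ v, v + v ∈ W) (hN : ∀ g ∈ NN, ∀ v ∈ W, g • v ∈ W)
include h2

theorem cgW {v w : Lam} (c : Cg v w) (h : w ∈ W) : v ∈ W := by
  obtain ⟨u, e⟩ := c
  rw [sub_eq_iff_eq_add.1 e, two_smul]; exact add_mem (h2 u) h

include hN
theorem invF (k : ℤ) (hk : k = 2 ∨ k = 4) : InvF {s | ∃ v ∈ W, ∀ i, cf v i % (2 * k) = if i ∈ s then k else 0} := by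
  refine ⟨⟨0, zero_mem W, fun i => by simp⟩, ?_, ?_⟩
  · rintro s ⟨v, hv, a⟩ t ⟨w, hw, b⟩
    refine ⟨v + w, add_mem hv hw, fun i => ?_⟩
    have a := a i; have b := b i
    rw [cf_add]
    by_cases h : i ∈ s <;> by_cases h' : i ∈ t <;> simp only [mem_symmDiff, h, h', if_true, if_false, not_true, not_false_iff,
      and_true, and_false, or_false, or_true, or_self] at a b ⊢ <;> rcases hk with rfl | rfl <;> omega
  · rintro σ hσ s ⟨v, hv, a⟩
    exact ⟨_, hN _ (prmH_mem ⟨σ, hσ⟩) v hv, fun i => by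
      rw [show cf (prmH ⟨σ, hσ⟩ • v) i = _ from cf_prm' hσ v i, a]; simp only [inv_apply_mem_iff]⟩

theorem sgn_sub {c : Finset GolayPt} (hc : c ∈ cw) {v : Lam} (hv : v ∈ W) :
    ∃ u ∈ W, ∀ i, cf u i = if i ∈ c then 2 * cf v i else 0 :=
  ⟨_, sub_mem hv (hN _ (EE_le ⟨c, hc, rfl⟩) v hv), fun i => by rw [cf_sub, cf_sgn]; split_ifs <;> ring⟩

theorem four {s : Finset GolayPt} (hs : s ∉ cw) (h : ∃ v ∈ W, ∀ i, cf v i % (2 * 4) = if i ∈ s then 4 else 0) (w : Lam)
    (hw : ∀ i, 4 ∣ cf w i) : w ∈ W := by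
  have I := (invF h2 hN 4 (.inr rfl)).even_of_not_le h hs
  have e : lE ∈ W := by
    obtain ⟨v, hv, a⟩ := I {none, pt 4} (by decide)
    obtain ⟨u, hu, b⟩ := sgn_sub h2 hN O0_mem.1 hv
    refine cgW h2 (Cg.sub_zero.1 (cg16 (fun i => ?_) (dvd_sum fun i _ => ?_))) hu <;> have a := a i <;>
      rw [cf_sub, b, cf_lE] <;> by_cases e : i = none <;> by_cases e' : i = pt 4 <;>
      simp only [e, e', mem_insert, mem_singleton, show none ∈ S 8536111 by decide, show pt 4 ∉ S 8536111 by decide,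
        show pt 4 ≠ none by decide, if_true, if_false, true_or, or_true, or_self] at a ⊢ <;> (try split_ifs) <;> omega
  obtain ⟨m, c, l⟩ := lc w
  have a := l.res none
  have := hw none
  have := l.par
  obtain rfl : m = 0 := by split_ifs at a <;> omega
  have p : ∀ i, (8 : ℤ) ∣ cf w i - if cf w i % 8 = 4 then 4 else 0 := fun i => by have := hw i; split_ifs <;> omega
  obtain ⟨v, hv, b⟩ := I (univ.filter fun i => cf w i % 8 = 4) (by
    have := dvd_sum_sub univ _ _ 8 fun i _ => p i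
    have := l.sum
    rw [← sum_filter, sum_const, nsmul_eq_mul] at *
    rw [Nat.even_iff]; omega)
  have : w - v ∈ W := by
    refine (cg8 fun i => ?_).elim (cgW h2 · (zero_mem W)) (cgW h2 · e)
    have := p i; have b := b i
    simp only [mem_filter, mem_univ, true_and] at b
    rw [cf_sub]; split_ifs at * <;> omega
  simpa using add_mem this hv

theorem three {c : Finset GolayPt} (hc : c ∈ cw) (h0 : c ≠ ∅) (h1 : c ≠ univ)
    (h : ∃ v ∈ W, ∀ i, cf v i % (2 * 2) = if i ∈ c then 2 else 0) (w : Lam) (hw : ∀ i, 2 ∣ cf w i) : w ∈ W := by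
  have I := (invF h2 hN 2 (.inl rfl)).cw_le h hc h0 h1
  obtain ⟨v, hv, a⟩ := I O0_mem.1
  obtain ⟨u, hu, b⟩ := sgn_sub h2 hN (S_mem_cw (m := 4845570) (by decide +kernel)) hv
  have F := four h2 hN (s := S 4845570 ∩ S 8536111) (fun h => by
    have := cw_card h
    rw [card_S_and (by norm_num), show pc _ = 2 by decide +kernel] at this; omega) ⟨u, hu, fun i => by
      have a := a i
      rw [b]; simp only [mem_inter]
      by_cases h : i ∈ S 4845570 <;> by_cases h' : i ∈ S 8536111 <;> simp only [h, h', if_true, if_false, and_true, and_false] at a ⊢ <;> omega⟩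
  obtain ⟨m, d, l⟩ := lc w
  obtain ⟨x, hx, e⟩ := I l.cw
  have a := l.res none
  have := hw none
  have := l.par
  obtain rfl : m = 0 := by split_ifs at a <;> omega
  have := F (w - x) fun i => by
    have := e i; have := l.res i
    rw [cf_sub]; split_ifs at * <;> omega
  simpa using add_mem this hx

theorem key {v : Lam} (hv : v ∈ W) : (∀ w, (∀ i, 2 ∣ cf w i) → w ∈ W) ∨ ∃ w, Cg v w ∧ ∀ i, 4 ∣ cf w i := by
  obtain ⟨m, c, l⟩ := lc v
  rcases l.par with rfl | rfl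
  · by_cases h0 : c = ∅
    · exact .inr ⟨v, .refl v, fun i => by have := l.res i; simp [h0] at this; exact this⟩
    by_cases h1 : c = univ
    · refine .inr ⟨_, cg_two v oD, fun i => ?_⟩
      have := l.res i
      simp only [h1, mem_univ, if_true] at this
      rw [cf_sub, cf_add, cf_oD]; split_ifs <;> omega
    exact .inl (three h2 hN l.cw h0 h1 ⟨v, hv, fun i => by simpa using l.res i⟩)
  · obtain ⟨u, hu, b⟩ := sgn_sub h2 hN O0_mem.1 hv
    exact .inl (three h2 hN O0_mem.1 (by decide) (by decide) ⟨u, hu, fun i => by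
      have := l.res i
      rw [b]; split_ifs at * <;> omega⟩)
end

theorem un : UN := fun W h2 hN => by
  by_cases h3 : ∀ w, (∀ i, 2 ∣ cf w i) → w ∈ W
  · exact .inr (.inr h3)
  refine or_iff_not_imp_left.2 fun h1 => .inl fun v => ⟨fun hv => (key h2 hN hv).resolve_left h3, fun ⟨w, c, hw⟩ => ?_⟩
  push Not at h1
  obtain ⟨x, hx, n0, n1⟩ := h1
  obtain ⟨y, d, hy⟩ := (key h2 hN hx).resolve_left h3
  refine cgW h2 c (four h2 hN (s := univ.filter fun i => cf y i % 8 = 4) (fun hs => ?_) ⟨y, cgW h2 d.symm hx, fun i => ?_⟩ w hw)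
  · have e := d.trans (cg_two y (oL hs))
    refine (cg8 fun i => ?_).elim (n0 <| e.trans ·) (n1 <| e.trans ·)
    have := hy i
    simp only [cf_sub, cf_add, cf_oL, mem_filter, mem_univ, true_and]; split_ifs <;> omega
  · have := hy i
    simp only [mem_filter, mem_univ, true_and]; split_ifs <;> omega

theorem fix_of {g : Co0} {u w : Lam} (hu : g • u = u) (hw : g • w = w ∨ g • w = -w) (d : dotInt (cf u) (cf w) ≠ 0) :
    g • w = w := hw.resolve_right fun e => d (by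
  have := co_dot_fix hu w
  rw [e, show cf (-w) = -cf w from rfl, dotInt_neg_right] at this; omega)

/-- an element fixing the classes of the vectors `±4 eᵢ ± 4 eⱼ` is central -/
theorem cen_r4 {g : Co0} (h : ∀ i j a b, i ≠ j → Cg (g • r4 i j a b) (r4 i j a b)) : g ∈ center Co0 := by
  have k : ∀ {g : Co0}, (∀ i j a b, i ≠ j → g • r4 i j a b = r4 i j a b ∨ g • r4 i j a b = -r4 i j a b) →
      g • r4 none (pt 0) true true = r4 none (pt 0) true true → g = 1 := fun {g} h e => by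
    have a : ∀ j b, j ≠ none → j ≠ pt 0 → g • r4 none j true b = r4 none j true b := fun j b h1 h2 =>
      fix_of e (h _ _ _ _ h1.symm) (by rw [dot_r4]; simp [cf_r4, h1, h2, show none ≠ pt 0 by decide])
    have a : ∀ j b, j ≠ none → g • r4 none j true b = r4 none j true b := fun j b h1 => by
      by_cases h2 : j = pt 0
      · exact fix_of (a (pt 1) true (by decide) (by decide)) (h _ _ _ _ h1.symm) (by rw [h2, dot_r4]; cases b <;> decide)
      · exact a j b h1 h2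
    refine co_ext fun i => ?_
    by_cases hi : i = none
    · rw [hi, show e8 none 1 = r4 none (pt 0) true true + r4 none (pt 0) true false from Subtype.ext (by decide), co_add,
        a _ _ (by decide), a _ _ (by decide), one_smul]
    · rw [show e8 i 1 = r4 none i true true - r4 none i true false from Subtype.ext (funext fun k => by
        change cf _ k = cf _ k - cf _ k
        rw [cf_e8, cf_r4, cf_r4, Pi.single_apply]; split_ifs <;> simp_all), co_sub, a _ _ hi, a _ _ hi, one_smul]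
  have h := fun i j a b n => (h i j a b n).short (by rw [co_norm, nm_r4 n]; omega) (by rw [nm_r4 n]; omega)
  rcases h none (pt 0) true true (by decide) with e | e
  · exact k h e ▸ one_mem _
  · have := k (g := coN * g) (fun i j a b n => by rcases h i j a b n with e | e <;> simp [mul_smul, e, coN_smul])
      (by rw [mul_smul, e, coN_smul, neg_neg])
    exact (mul_mem_cancel_left coN_mem_center).1 (this ▸ one_mem _)

theorem d4_r4 (i j : GolayPt) (a b : Bool) (k : GolayPt) : 4 ∣ cf (r4 i j a b) k := by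
  rw [cf_r4]; split_ifs <;> omega

theorem cd : CD.{u} := fun G _ _ Q z f R M y hy h => by
  obtain ⟨g, a⟩ := A.tot (f := f) hy
  have yQ := (M.aker a).2 (cen_r4 fun i j s t n => by
    obtain ⟨x, b⟩ := M.sur (r4 i j s t)
    have := M.act a b
    rw [(h x ⟨_, b, d4_r4 i j s t⟩).eq, mul_inv_cancel_right] at this
    exact (M.uniq this b).2 (.inl rfl))
  obtain ⟨w, c⟩ := M.tot y yQ
  have k : ∀ i j t, 4 ∣ cf w i + (if t = true then 1 else -1) * cf w j := fun i j t => by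
    obtain ⟨x, b⟩ := M.sur (r4 i j true t)
    have := (cm' M c b).1 (h x ⟨_, b, d4_r4 i j _ t⟩).eq
    rw [dot_r4] at this
    cases t <;> simp only [if_true, Bool.false_eq_true, if_false] at this ⊢ <;> omega
  have k1 := k none none true
  have k2 := fun i => k i none false
  simp only [if_true, Bool.false_eq_true, if_false] at k1 k2
  by_cases e : 4 ∣ cf w none
  · exact ⟨w, c, fun i => by have := k2 i; omega⟩
  · exact ⟨_, M.cg c (cg_two w oD), fun i => by have := k2 i; rw [cf_sub, cf_add, cf_oD]; split_ifs <;> omega⟩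

section
variable {G : Type u} [Group G] [Finite G] {Q : Subgroup G} {z s x y : G} {f : C[z] →* Spor.Co1}
  {R : G → Lam → Prop} (M : MT Q z f R) {v w : Lam}
include M

/-- the classes of the elements of a subgroup -/
def cls (H : Subgroup G) : AddSubgroup Lam where
  carrier := {v | ∃ x ∈ H, R x v}
  zero_mem' := ⟨1, one_mem _, M.zero (one_mem _) (.refl 0)⟩
  add_mem' := fun ⟨_, a, b⟩ ⟨_, c, d⟩ => ⟨_, mul_mem a c, M.mul b d⟩
  neg_mem' := fun ⟨_, a, b⟩ => ⟨_, a, M.cg b (Cg.neg _).symm⟩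

theorem cls2 (H : Subgroup G) (v : Lam) : v + v ∈ cls M H := ⟨1, one_mem _, M.zero (one_mem _) (cg_zero.2 ⟨v, rfl⟩)⟩

theorem clsN {H B : Subgroup G} (hB : NN ≤ img f B) (n : B ≤ N(H)) : ∀ g ∈ NN, ∀ v ∈ cls M H, g • v ∈ cls M H :=
  fun g hg v ⟨x, a, b⟩ => let ⟨_, c, d⟩ := mem_img.1 (hB hg); ⟨_, conj_mem_of_norm (n c) a, M.act d b⟩

theorem cs (a : R s lE) (b : R x v) : x ∈ C[s] ↔ ∀ i, 2 ∣ cf v i := by
  rw [mem_cent1, cm' M b a, dotInt_comm, dot_e8]
  exact ⟨fun h => par (i := pt 23) (by omega), fun h => by have := h (pt 23); omega⟩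

theorem s_ne (a : R s lE) : s ∉ zpowers z := fun h => nz_of (norm_e8 _) (by norm_num) ((M.rk a).1 h)

theorem QK : Q ⊓ C[s] ≤ C[z] ⊓ C[s] := inf_le_inf_right _ M.le.es.le_cent

/-- `z` is a commutator in any subgroup meeting all even classes -/
theorem z_comm {H : Subgroup G} (h : ∀ v, (∀ i, 2 ∣ cf v i) → v ∈ cls M H) (a : R s lE) :
    ∃ x ∈ H ⊓ Q ⊓ C[s], ∃ y ∈ H ⊓ Q ⊓ C[s], ⁅x, y⁆ = z := by
  have e1 : ∀ i, 2 ∣ cf (oL O0_mem.1) i := fun i => by rw [cf_oL]; split_ifs <;> omega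
  have e2 : ∀ i, 2 ∣ cf (r4 none (pt 4) true true) i := fun i => (show (2 : ℤ) ∣ 4 by decide).trans (d4_r4 _ _ _ _ i)
  obtain ⟨x, hx, b⟩ := h _ e1
  obtain ⟨y, hy, c⟩ := h _ e2
  exact ⟨x, ⟨⟨hx, M.mem b⟩, (cs M a b).2 e1⟩, y, ⟨⟨hy, M.mem c⟩, (cs M a c).2 e2⟩, M.le.es.comm_eq (M.mem b) (M.mem c) fun e => by
    have := (cm' M b c).1 e
    rw [dot_r4, cf_oL, cf_oL] at this
    exact absurd this (by decide)⟩

theorem Q_le {H : Subgroup G} (h : ∀ v, (∀ i, 2 ∣ cf v i) → v ∈ cls M H) (a : R s lE) : Q ⊓ C[s] ≤ H := fun x hx => by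
  obtain ⟨p, hp, q, hq, e⟩ := z_comm M h a
  have hz : z ∈ H := e ▸ mul_mem (mul_mem (mul_mem hp.1.1 hq.1.1) (inv_mem hp.1.1)) (inv_mem hq.1.1)
  obtain ⟨v, b⟩ := M.tot x hx.1
  obtain ⟨y, hy, c⟩ := h v ((cs M a b).1 hx.2)
  rcases (M.uniq c b).1 (.refl v) with rfl | rfl
  exacts [hy, mul_mem hy hz]

theorem cls_top (a : R s lE) (v : Lam) (h : ∀ i, 2 ∣ cf v i) : v ∈ cls M (Q ⊓ C[s]) :=
  let ⟨x, b⟩ := M.sur v; ⟨x, ⟨M.mem b, (cs M a b).2 h⟩, b⟩

theorem le_of_img {H K : Subgroup G} (l : K ≤ C[z]) (h : img f K ≤ img f H) (hl : H ≤ K) (q : K ⊓ Q ≤ H) : K ≤ H := fun k hk => by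
  obtain ⟨g, a⟩ := A.tot (f := f) (l hk)
  obtain ⟨y, hy, b⟩ := mem_img.1 (h (mem_img.2 ⟨k, hk, a⟩))
  exact (H.mul_mem_cancel_right (inv_mem hy)).1 (q ⟨K.mul_mem hk (K.inv_mem (hl hy)),
    (M.aker (a.mul b.inv)).2 (by rw [mul_inv_cancel]; exact one_mem _)⟩)
end

theorem perf24 : commutator M24 = ⊤ := by
  haveI := simple_M24
  refine (IsSimpleGroup.eq_bot_or_eq_top_of_normal _ inferInstance).resolve_left fun h => ?_
  obtain ⟨σ, hσ, a, b⟩ := m24_trans2 (a := pt 0) (b := pt 1) (a' := pt 1) (b' := pt 0) (by decide) (by decide)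
  obtain ⟨τ, hτ, c, d⟩ := m24_trans2 (a := pt 0) (b := pt 1) (a' := pt 0) (b' := pt 2) (by decide) (by decide)
  have := commutatorElement_eq_one_iff_mul_comm.1 (Subgroup.mem_bot.1
    (h.le (commutator_mem_commutator (mem_top (⟨σ, hσ⟩ : M24)) (mem_top (⟨τ, hτ⟩ : M24)))))
  have := congrArg (fun x : M24 => x.1 (pt 0)) this
  simp only [Subgroup.coe_mul, Equiv.Perm.mul_apply, a, c, d] at this
  exact absurd this (by decide)

theorem ex_oct : ∃ σ ∈ M24, symmDiff (σ • S 8536111) (S 8536111) ≠ ∅ ∧ symmDiff (σ • S 8536111) (S 8536111) ≠ univ := by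
  obtain ⟨σ, hσ, e⟩ := m24_trans_octads O0_mem (S_mem_octads (m := 4845570) (by decide +kernel))
  exact ⟨σ, hσ, by rw [e]; decide, by rw [e]; decide⟩

/-- the monomial group is perfect -/
theorem NN_le {I : Subgroup Co0} (h : ∀ a ∈ NN, ∀ b ∈ NN, ⁅a, b⁆ ∈ I) : NN ≤ I := fun g hg => by
  have p : ∀ σ, prmH σ ∈ I := fun σ => (show commutator M24 ≤ I.comap prmH from commutator_le.2 fun a _ b _ => by
    rw [Subgroup.mem_comap, map_commutatorElement]; exact h _ (prmH_mem a) _ (prmH_mem b)) (perf24 ▸ mem_top σ)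
  have J : InvF {c | ∃ hc : c ∈ cw, sgn hc ∈ I} :=
    ⟨⟨cw_empty, sgn_empty ▸ one_mem I⟩, fun _ ⟨a, ha⟩ _ ⟨b, hb⟩ => ⟨_, sgn_mul a b ▸ mul_mem ha hb⟩,
      fun σ hσ _ ⟨a, ha⟩ => ⟨_, prm_sgn ⟨σ, hσ⟩ a ▸ mul_mem (mul_mem (p _) ha) (inv_mem (p _))⟩⟩
  obtain ⟨σ, hσ, a, b⟩ := ex_oct
  have := h _ (prmH_mem ⟨σ, hσ⟩) _ (EE_le ⟨_, O0_mem.1, rfl⟩)
  rw [commutatorElement_def, prm_sgn, inv_eq_of_mul_eq_one_right (sgn_sq _), sgn_mul] at this
  obtain ⟨_, ⟨c, hc, rfl⟩, τ, rfl⟩ := exists_NN hg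
  exact mul_mem (J.cw_le ⟨_, this⟩ (cw_symmDiff (smul_mem_cw hσ O0_mem.1) O0_mem.1) a b hc).2 (p τ)

theorem pf : PF.{u} := fun G _ _ Q z s f R M a => by
  have I := img_s M a
  have l : ⁅C[z] ⊓ C[s], C[z] ⊓ C[s]⁆ ≤ C[z] ⊓ C[s] := commutator_le.2 fun p hp q hq =>
    mul_mem (mul_mem (mul_mem hp hq) (inv_mem hp)) (inv_mem hq)
  refine le_antisymm l (le_of_img M inf_le_left (I ▸ NN_le fun p hp q hq => ?_) l fun x hx => Q_le M ?_ a ⟨hx.2, hx.1.2⟩)
  · obtain ⟨x, hx, b⟩ := mem_img.1 (I.ge hp)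
    obtain ⟨y, hy, c⟩ := mem_img.1 (I.ge hq)
    exact mem_img.2 ⟨_, commutator_mem_commutator hx hy, ((b.mul c).mul b.inv).mul c.inv⟩
  obtain ⟨σ, hσ, n0, n1⟩ := ex_oct
  obtain ⟨h, hh, b⟩ := mem_img.1 (I.ge (prmH_mem ⟨σ, hσ⟩))
  obtain ⟨y, hy, c⟩ := cls_top M a (oL O0_mem.1) fun i => by rw [cf_oL]; split_ifs <;> omega
  refine three (cls2 M _) (clsN M I.ge fun k hk => mem_normalizer_fintype fun x hx => ?_)
    (cw_symmDiff (smul_mem_cw hσ O0_mem.1) O0_mem.1) n0 n1 ⟨_, ⟨_, commutator_mem_commutator hh (QK M hy), M.comm b c⟩, fun i => ?_⟩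
  · refine (show _ ≤ comap (MulAut.conj k).toMonoidHom ⁅C[z] ⊓ C[s], C[z] ⊓ C[s]⁆ from commutator_le.2 fun p hp q hq => ?_) hx
    rw [Subgroup.mem_comap, map_commutatorElement]
    exact commutator_mem_commutator (mul_mem (mul_mem hk hp) (inv_mem hk)) (mul_mem (mul_mem hk hq) (inv_mem hk))
  · rw [cf_add, show cf (prmH ⟨σ, hσ⟩ • oL O0_mem.1) i = _ from cf_prm' hσ _ i, cf_oL, cf_oL]
    simp only [inv_apply_mem_iff, mem_symmDiff]
    by_cases h : i ∈ σ • S 8536111 <;> by_cases h' : i ∈ S 8536111 <;> simp [h, h']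

end H3.AM
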