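import Cfsg.Agent.H3.AM1

/-! The triality. -/

set_option autoImplicit false
set_option linter.unusedSectionVars false
set_option linter.unusedVariables false

namespace H3.AM
open Cfsg H15 H19 H0 H0.Mo H0.Y Subgroup Function H7.AM
open scoped commutatorElement Pointwise

universe u

section
variable {G : Type u} [Group G] {H K : Subgroup G} {δ : G → G} {x y : G}

/-- the image of a subgroup -/
def im (h : Au H δ) (l : K ≤ H) : Subgroup G where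
  carrier := δ '' K
  one_mem' := ⟨1, one_mem K, h.one⟩
  mul_mem' := by rintro _ _ ⟨a, ha, rfl⟩ ⟨b, hb, rfl⟩; exact ⟨_, mul_mem ha hb, h.mul _ (l ha) _ (l hb)⟩
  inv_mem' := by rintro _ ⟨a, ha, rfl⟩; exact ⟨_, inv_mem ha, h.inv (l ha)⟩

theorem au_cm (h : Au H δ) (hx : x ∈ H) (hy : y ∈ H) : δ ⁅x, y⁆ = ⁅δ x, δ y⁆ := by
  rw [commutatorElement_def, h.mul _ (mul_mem (mul_mem hx hy) (inv_mem hx)) _ (inv_mem hy), h.conj hx hy, h.inv hy,
    commutatorElement_def]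

theorem im_nrm [Finite G] (h : Au H δ) (l : K ≤ H) (n : H ≤ N(K)) : H ≤ N(im h l) := fun k hk =>
  mem_normalizer_fintype (by
    rintro _ ⟨x, hx, rfl⟩
    obtain ⟨k, hk', rfl⟩ := h.sur hk
    exact ⟨_, conj_mem_of_norm (n hk') hx, h.conj hk' (l hx)⟩)

theorem img_pg {z : G} {f : C[z] →* Spor.Co1} (h : IsPGroup 2 K) : IsPGroup 2 (img f K) := fun ⟨n, hn⟩ => by
  obtain ⟨k, k1, k2⟩ := mem_img.1 hn
  obtain ⟨m, e⟩ := h ⟨k, k1⟩
  have := k2.pow (2 ^ m)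
  rw [show k ^ 2 ^ m = 1 from congrArg Subtype.val e] at this
  refine ⟨m + 1, Subtype.ext ?_⟩
  show n ^ (2 ^ m * 2) = 1
  rw [pow_mul, sq]
  exact EE_sq (center_le_EE this.cen)

theorem img_nrm {z : G} {f : C[z] →* Spor.Co1} (n : H ≤ N(K)) : ∀ g ∈ img f H, ∀ e ∈ img f K, g * e * g⁻¹ ∈ img f K :=
  fun _ hg _ hn => by
  obtain ⟨h, h1, h2⟩ := mem_img.1 hg
  obtain ⟨k, k1, k2⟩ := mem_img.1 hn
  exact mem_img.2 ⟨_, conj_mem_of_norm (n h1) k1, (h2.mul k2).mul h2.inv⟩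
end

section
variable {G : Type u} [Group G] [Finite G] {Q : Subgroup G} {z s x y : G} {f : C[z] →* Spor.Co1}
  {R : G → Lam → Prop} (M : MT Q z f R) {v w : Lam}
include M

theorem nQ : C[z] ⊓ C[s] ≤ N(Q ⊓ C[s]) := fun k hk => mem_normalizer_fintype fun x hx =>
  ⟨conj_mem_of_norm (M.le.norm hk.1) hx.1, C[s].mul_mem (C[s].mul_mem hk.2 hx.2) (C[s].inv_mem hk.2)⟩

theorem sK (a : R s lE) : s ∈ Q ⊓ C[s] := ⟨M.mem a, mem_cent1.2 rfl⟩
theorem zK (a : R s lE) : z ∈ Q ⊓ C[s] := ⟨M.le.es.zQ, mem_cent1.2 (M.le.es.cent _ (M.mem a)).symm⟩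

theorem n32 (h : sqNorm (cf v) = 32) : ¬ (Cg v 0 ∨ Cg v lE) := by
  rintro (c | c)
  · exact nz_of h (by norm_num) c
  · rcases c.symm.short (norm_e8 _).le (by omega) with e | e
    · rw [← e, norm_e8] at h; omega
    · have := norm_e8 (pt 23)
      rw [show e8 (pt 23) 1 = -v from e, show cf (-v) = -cf v from rfl, sqNorm_neg] at this; omega

/-- a subgroup normalized by `C(z, s)` with image `E` in which `z` is not a commutator meets `Q` in `2 ^ 13` -/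
theorem inf_D {P : Subgroup G} (a : R s lE) (l : P ≤ C[z] ⊓ C[s]) (n : C[z] ⊓ C[s] ≤ N(P)) (i : img f P = EE) (hz : z ∈ P)
    (c : ∀ x ∈ P, ∀ y ∈ P, ⁅x, y⁆ ≠ z) (x : G) : x ∈ P ⊓ Q ↔ D4 R x := by
  rcases un (cls M P) (cls2 M _) (clsN M (img_s M a).ge n) with h | h | h
  · obtain ⟨e, he, v, h1, h2⟩ := sgn_vec
    obtain ⟨y, y1, y2⟩ := mem_img.1 (i.ge he)
    obtain ⟨x, b⟩ := M.sur v
    exact (n32 M h2 (h _ ⟨_, comm_mem_left (n (QK M ⟨M.mem b, mem_cent1.2 ((cm' M b a).2 h1)⟩)) y1, M.comm y2 b⟩)).elim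
  · refine ⟨fun hx => ?_, fun ⟨v, b, hv⟩ => ?_⟩
    · obtain ⟨v, b⟩ := M.tot x hx.2
      obtain ⟨w, c, hw⟩ := (h v).1 ⟨x, hx.1, b⟩
      exact ⟨w, M.cg b c, hw⟩
    · obtain ⟨y, hy, c⟩ := (h v).2 ⟨v, .refl v, hv⟩
      refine ⟨?_, M.mem b⟩
      rcases (M.uniq c b).1 (.refl v) with rfl | rfl
      exacts [hy, mul_mem hy hz]
  · obtain ⟨x, hx, y, hy, e⟩ := z_comm M h a
    exact (c x hx.1.1 y hy.1.1 e).elim
end

theorem t1 : T1.{u} := fun G _ _ Q z s f R δ ⟨M, a, au, dz, ds⟩ => by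
  have E := M.le.es
  have e : Pd Q s δ = im au (QK M) := closure_eq (im au (QK M))
  have sz := E.mem_zp.not.1 (s_ne M a)
  have l : im au (QK M) ≤ C[z] ⊓ C[s] := by rintro _ ⟨x, hx, rfl⟩; exact au.mem _ (QK M hx)
  have n := im_nrm au (QK M) (nQ M)
  have sq : ∀ x ∈ im au (QK M), x * x = 1 ∨ x * x = s := by
    rintro _ ⟨x, hx, rfl⟩
    rw [← au.mul _ (QK M hx) _ (QK M hx)]
    exact (E.sq x hx.1).imp (fun e => by rw [e, au.one]) fun e => by rw [e, dz]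
  have cm : ∀ x ∈ im au (QK M), ∀ y ∈ im au (QK M), ⁅x, y⁆ = 1 ∨ ⁅x, y⁆ = s := by
    rintro _ ⟨x, hx, rfl⟩ _ ⟨y, hy, rfl⟩
    rw [← au_cm au (QK M hx) (QK M hy)]
    exact (E.comm x hx.1 y hy.1).imp (fun e => by rw [e, au.one]) fun e => by rw [e, dz]
  have i : img f (im au (QK M)) = EE := by
    rw [← eq_EE (img_s M a ▸ img_mono l) (img_pg fun x => ⟨2, Subtype.ext ?_⟩) (img_s M a ▸ img_nrm n) fun h => ?_,
      sup_of_le_left center_le_img]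
    · change x.1 ^ 4 = 1
      rw [show x.1 ^ 4 = x.1 * x.1 * (x.1 * x.1) by simp only [pow_succ, pow_zero, one_mul, mul_assoc]]
      rcases sq _ x.2 with e | e <;> rw [e]
      exacts [mul_one _, sq4 M a]
    · obtain ⟨x, hx, y, hy, e⟩ := z_comm M (cls_top M a) a
      have q : ∀ x ∈ Q ⊓ C[s], δ x ∈ Q := fun x hx =>
        let ⟨g, b⟩ := A.tot (f := f) (l ⟨x, hx, rfl⟩).1; (M.aker b).2 (h (mem_img.2 ⟨_, ⟨x, hx, rfl⟩, b⟩))
      refine sz ?_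
      rw [← dz, ← e, au_cm au (QK M hx.1.1) (QK M hy.1.1), e]
      exact E.comm _ (q _ hx.1.1) _ (q _ hy.1.1)
  have I := inf_D M a l n i ⟨s * z, mul_mem (sK M a) (zK M a), by
    rw [au.mul _ (QK M (sK M a)) _ (QK M (zK M a)), ds, dz, mul_assoc, ← E.cent _ (M.mem a), ← mul_assoc, sq4 M a, one_mul]⟩
    fun x hx y hy e => (cm x hx y hy).elim (fun h => E.z1 (e ▸ h)) fun h => sz (.inr (h ▸ e))
  rw [← e] at l n sq cm i I
  exact ⟨fun y => by rw [e]; rfl, l, n, I, i, sq, cm, fun x hx h => cd G Q z f R M x (l hx).1 fun y hy => (h y hy)⟩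

theorem t0 : T0 := fun G _ _ z h => by
  obtain ⟨s, f, R, L, c, M, a⟩ := h.ex
  obtain ⟨p, hp, e1⟩ := L.l.es.exists_conj L.tQ L.notMem
  obtain ⟨q, hq, e2⟩ := L.r.es.exists_conj L.zQ L.symm.notMem
  have zs := L.comm
  have p1 := L.l.es.cent _ hp
  have q1 := L.r.es.cent _ hq
  have dz : p * q * z * (p * q)⁻¹ = s := by
    calc _ = p * (q * z * q⁻¹) * p⁻¹ := by group
      _ = p * z * p⁻¹ * (p * s * p⁻¹) := by rw [e2]; group
      _ = s := by rw [e1, p1, mul_inv_cancel_right, ← mul_assoc, zs, mul_assoc, L.l.es.zz, mul_one]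
  have ds : p * q * s * (p * q)⁻¹ = s * z := by
    calc _ = p * (q * s * q⁻¹) * p⁻¹ := by group
      _ = _ := by rw [q1, mul_inv_cancel_right, e1]
  have dsz : p * q * (s * z) * (p * q)⁻¹ = z := by
    calc _ = p * q * s * (p * q)⁻¹ * (p * q * z * (p * q)⁻¹) := by group
      _ = z := by rw [ds, dz, mul_assoc, zs, ← mul_assoc, L.r.es.zz, one_mul]
  generalize p * q = d at dz ds dsz
  have cc : ∀ {x y : G}, x ∈ C[y] → d * x * d⁻¹ ∈ C[d * y * d⁻¹] := fun h => mem_cent1.2 (by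
    have := mem_cent1.1 h
    simp only [mul_assoc, inv_mul_cancel_left]
    rw [← mul_assoc _ _ d⁻¹, this, mul_assoc])
  have au : Au (C[z] ⊓ C[s]) (cn d) := ⟨fun x hx => ⟨dsz ▸ cc (mem_cent1.2 (by
    rw [← mul_assoc, mem_cent1.1 hx.2, mul_assoc, mem_cent1.1 hx.1, mul_assoc])), dz ▸ cc hx.1⟩, fun x _ y _ => by simp only [cn]; group,
    fun x _ e => by simpa [mul_inv_eq_one] using e⟩
  refine ⟨s, d, f, R, c, L.ne, ⟨M, a, au, dz, ds⟩, (closure_eq (im au (QK M))).trans (le_antisymm ?_ fun y hy => ?_)⟩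
  · rintro _ ⟨x, hx, rfl⟩
    exact ⟨dz ▸ Qo_conj hx.1 d, (au.mem _ (QK M hx)).1⟩
  · refine ⟨d⁻¹ * y * d, ⟨?_, mem_cent1.2 ?_⟩, by simp only [cn]; group⟩
    · have := Qo_conj hy.1 d⁻¹
      rwa [← dz, inv_inv, show d⁻¹ * (d * z * d⁻¹) * d = z by group] at this
    · have : y * (s * z) = s * z * y := by rw [← mul_assoc, L.r.es.cent _ hy.1, mul_assoc, mem_cent1.1 hy.2, mul_assoc]
      rw [← ds] at this
      calc _ = d⁻¹ * (y * (d * s * d⁻¹)) * d := by group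
        _ = _ := by rw [this]; group

end H3.AM
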