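import Cfsg.Agent.H3.AM2
import Cfsg.Agent.H19.AM1

/-! The group `K` is the centralizer of a four-group on which `δ` acts as a triality. -/

set_option autoImplicit false
set_option linter.unusedSectionVars false
set_option linter.unusedVariables false

namespace H3.AM
open Cfsg H15 H19 H0 H0.Mo H0.Y Subgroup Function H7.AM H19.AM
open scoped commutatorElement Pointwise

universe u

theorem EE_nc : ¬ EE ≤ center Co0 := fun h => by
  obtain ⟨e, he, v, -, h2⟩ := sgn_vec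
  exact nz_of h2 (by norm_num) (Cg.add_zero.2 (cg_center (h he) v))

section
variable {G : Type u} [Group G] [Finite G] {Q B K R' : Subgroup G} {z s x y : G} {f : C[z] →* Spor.Co1}
  {R : G → Lam → Prop} {δ : G → G}

theorem img_tw (X : Subgroup G) (g : Co0) :
    img ((MulAut.conj (QuotientGroup.mk g : Spor.Co1)⁻¹).toMonoidHom.comp f) X = cj g⁻¹ (img f X) := by
  ext a
  rw [mem_cj, mem_img, mem_img, inv_inv]
  refine exists_congr fun h => and_congr_right fun _ => exists_congr fun hh => ?_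
  simp [← mul_assoc, inv_mul_eq_iff_eq_mul, eq_mul_inv_iff_mul_eq]
  rw [mul_assoc, inv_mul_eq_iff_eq_mul]

variable (M : MT Q z f R)
include M

theorem lift {p : ℕ} (hp : Odd p) {g : G} (hg : g ∈ C[z]) (e : g ^ p = 1) (n : g ≠ 1) : ∃ γ, A f g γ ∧ γ ^ p = 1 ∧ γ ≠ 1 := by
  obtain ⟨γ, a⟩ := A.tot (f := f) hg
  have c := (e ▸ a.pow p).cen
  have b := (A.one (f := f) c).mul a
  rw [one_mul] at b
  refine ⟨_, b, ?_, fun h => n ?_⟩
  · obtain ⟨k, rfl⟩ := hp
    rw [← pow_succ, ← pow_mul, show (2 * k + 1 + 1) * (2 * k + 1) = (2 * k + 1) * 2 * (k + 1) by ring, pow_mul, pow_mul, sq,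
      EE_sq (center_le_EE c), one_pow]
  · have := M.le.es.pow4 ((M.aker b).2 (h ▸ one_mem _))
    exact orderOf_eq_one_iff.1 (Nat.eq_one_of_dvd_coprimes ((Nat.coprime_two_left.2 hp).pow_left 2)
      (orderOf_dvd_of_pow_eq_one this) (orderOf_dvd_of_pow_eq_one e))

variable (h : HS z B K R' δ)
include h

theorem KC : K ≤ C[z] := h.KB.trans h.Bz

theorem KQ : K ⊓ Q = R' ⊓ Q := by
  refine le_antisymm (fun x hx => ⟨?_, hx.2⟩) (inf_le_inf_right _ h.RK)
  obtain ⟨π, hπ, k⟩ := h.pi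
  haveI := simple_M24
  have n : (Q.subgroupOf K).Normal := ⟨fun a ha b => conj_mem_of_norm (H := Q) (M.le.norm (KC M h b.2)) ha⟩
  have := ((n.map π hπ).eq_bot_or_eq_top).resolve_right fun e => by
    have := (M.le.es.isPGroup.comap_subtype (K := K)).map π
    rw [show Q.comap K.subtype = Q.subgroupOf K from rfl, e] at this
    exact not_dvd_two Nat.prime_three (by decide) this (by rw [card_top, card_M24]; norm_num)
  exact (k ⟨x, hx.1⟩).1 (mem_bot.1 (this ▸ mem_map_of_mem π (show ⟨x, hx.1⟩ ∈ Q.subgroupOf K from hx.2)))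

theorem card_K : #(img f K) = #(img f R') * 244823040 := by
  obtain ⟨π, hπ, k⟩ := h.pi
  have a := M.card_img (KC M h)
  have b := M.card_img (h.RK.trans (KC M h))
  have c := π.ker.card_mul_index
  rw [index_ker, MonoidHom.range_eq_top.2 hπ, card_top, card_M24, show π.ker = R'.subgroupOf K from
    Subgroup.ext fun x => k x, Nat.card_congr (subgroupOfEquivOfLe h.RK).toEquiv] at c
  rw [KQ M h] at a
  exact Nat.eq_of_mul_eq_mul_right (Nat.card_pos (α := ↥(R' ⊓ Q))) (by rw [a, ← c, mul_right_comm, b]; ring)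
end

theorem s1 (cp : CP.{u}) (al : AL) (ne : NE) : S1.{u} := fun G _ _ Q B K R' z f R δ M h n => by
  obtain ⟨l, g, hg, T⟩ := cp G z B K R' δ h
  obtain ⟨γ, a, e, g1⟩ := lift M (by decide) (KC M h hg) T.g23 T.g1
  have nc : ¬ img f (XX R' δ) ≤ center Co0 := fun c => n fun x hx =>
    let ⟨_, b⟩ := A.tot (f := f) (KC M h (h.RK (l hx))); (M.aker b).2 (c (mem_img.2 ⟨x, hx, b⟩))
  obtain ⟨h1, h2⟩ := al _ γ (img_pg T.pX) center_le_img nc (mem_normalizer_fintype
    (img_nrm h.nX _ (mem_img.2 ⟨g, h.KB hg, a⟩))) e g1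
  have h3 := card_le (img_mono (f := f) l)
  have h4 : #(img f R') ≤ 2 ^ 12 := by
    obtain ⟨m, hm⟩ := IsPGroup.iff_card.1 (img_pg (f := f) h.pR)
    have := (img f K).card_subgroup_dvd_card
    rw [card_K M h, card_Co0, hm, show 8315553613086720000 = 2 ^ 12 * 8292375 * 244823040 by norm_num] at this
    rw [hm]
    exact Nat.le_of_dvd (by norm_num) (((by norm_num : Nat.Coprime 2 8292375).pow_left m).dvd_of_dvd_mul_right
      (Nat.dvd_of_mul_dvd_mul_right (by norm_num) this))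
  obtain ⟨k, hk⟩ := h2 (by omega)
  have M' := M.twist k⁻¹
  have e1 := img_tw (f := f) (XX R' δ) k⁻¹
  have e2 := img_tw (f := f) R' k⁻¹
  rw [← eq_of_le_of_card_eq (img_mono (f := f) l) (by omega)] at e2
  rw [inv_inv, hk] at e1 e2
  have e3 := card_K M' h
  have e4 : img _ B ≤ NN := fun g hg => ne (mem_normalizer_fintype (e2 ▸ img_nrm h.nR g hg))
  have e5 := eq_of_le_of_card_eq ((img_mono h.KB).trans e4) (by rw [e3, e2, card_EE, card_NN]; norm_num)
  exact ⟨_, _, M', e1, e2, e5, le_antisymm e4 (e5 ▸ img_mono h.KB)⟩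

theorem s2 (cp : CP.{u}) (b2 : B2.{u}) : S2.{u} := fun G _ _ Q B K R' z f R δ M h iX iR iK iB => by
  obtain ⟨l, g, hg, T⟩ := cp G z B K R' δ h
  have E := M.le.es
  have kc := KC M h
  obtain ⟨s, a⟩ := M.sur lE
  have QR : Q ⊓ C[s] ≤ R' := by
    have n := b2 G Q _ z g f R δ M (kc hg) T (l.trans (h.RK.trans kc)) iX
    rcases un (cls M (XX R' δ)) (cls2 M _) (clsN M iB.ge h.nX) with c | c | c
    · refine (n fun x hx => ?_).elim
      obtain ⟨v, b⟩ := M.tot x hx.2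
      exact (c v ⟨x, hx.1, b⟩).elim (fun e => ⟨0, M.cg b e, fun _ => dvd_zero _⟩) fun e =>
        ⟨lE, M.cg b e, fun i => by rw [cf_lE]; split_ifs <;> omega⟩
    · refine (n fun x hx => ?_).elim
      obtain ⟨v, b⟩ := M.tot x hx.2
      obtain ⟨w, d, hw⟩ := (c v).1 ⟨x, hx.1, b⟩
      exact ⟨w, M.cg b d, hw⟩
    · exact (Q_le M c a).trans l
  have ss := sq4 M a
  have sz := E.mem_zp.not.1 (s_ne M a)
  have zs := E.cent _ (M.mem a)
  have c1 := E.card_cent (A := zpowers z ⊔ zpowers s) (mem_sup_left (mem_zpowers z)) (sup_le E.zp_le (zpowers_le.2 (M.mem a)))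
  rw [card_four E.zz ss zs.symm E.z1 (fun e => sz (.inl e)) (fun e => sz (.inr e.symm)), cent_pair, ← inf_assoc,
    inf_of_le_left E.le_cent, M.card] at c1
  have c2 := M.card_img kc
  have c3 := M.card_img h.Bz
  have c4 := card_mul_relIndex h.KB
  have c5 := card_le (le_inf (QR.trans h.RK) inf_le_left)
  have c6 := card_le (inf_le_right (a := B) (b := Q))
  rw [iK, card_NN] at c2
  rw [iB, card_NN] at c3
  rw [h.idx] at c4
  rw [M.card] at c6
  have QB : Q ≤ B := inf_eq_right.1 (eq_of_le_of_card_eq inf_le_right (by rw [M.card]; omega))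
  have KQ' : Q ⊓ C[s] = K ⊓ Q := eq_of_le_of_card_eq (le_inf (QR.trans h.RK) inf_le_left) (by omega)
  have K0B : C[z] ⊓ C[s] ≤ B := fun k hk => by
    obtain ⟨γ, b⟩ := A.tot (f := f) hk.1
    obtain ⟨y, hy, c⟩ := mem_img.1 (iB.ge ((img_s M a).le (mem_img.2 ⟨k, hk, b⟩)))
    exact (B.mul_mem_cancel_right (inv_mem hy)).1 (QB ((M.aker (b.mul c.inv)).2 (by rw [mul_inv_cancel]; exact one_mem _)))
  have K0K : C[z] ⊓ C[s] ≤ K := (pf G Q z s f R M a).ge.trans (commutator_le.2 fun p hp q hq => by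
    have i := fun {a b : B} => mul_mem_iff_of_index_two (H := K.subgroupOf B) h.idx (a := a) (b := b)
    change (⟨p, K0B hp⟩ * ⟨q, K0B hq⟩ * ⟨p, K0B hp⟩⁻¹ * ⟨q, K0B hq⟩⁻¹ : B) ∈ K.subgroupOf B
    rw [i, i, i, inv_mem_iff, inv_mem_iff]; tauto)
  obtain rfl : K = C[z] ⊓ C[s] :=
    le_antisymm (le_of_img M kc (iK.trans (img_s M a).symm).le K0K (KQ' ▸ QK M)) K0K
  have au := h.au
  have dR : ∀ r ∈ R', δ r ∈ R' := fun r hr => (R'.mul_mem_cancel_left (inv_mem hr)).1 (h.dK r (h.RK hr))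
  have V : ∀ y ∈ R', y ∈ C(R') → δ y ≠ 1 → δ y = z ∨ δ y = s ∨ δ y = z * s := fun y hy c n => by
    have c' : ∀ r ∈ R', δ y * r = r * δ y := fun r hr => by
      obtain ⟨r, hr', rfl⟩ := (au.sub h.RK dR).sur hr
      rw [← au.mul _ (h.RK hy) _ (h.RK hr'), ← c r hr', au.mul _ (h.RK hr') _ (h.RK hy)]
    obtain ⟨v, b, -⟩ := cd G Q z f R M _ (h.RK (dR y hy)).1 fun x ⟨v, b, hv⟩ => c' x (QR ⟨M.mem b, (cs M a b).2 fun i =>
      (show (2 : ℤ) ∣ 4 by decide).trans (hv i)⟩)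
    exact ((mem_four E.zz ss zs.symm).1 ((E.cent_four (M.mem a)).le ⟨M.mem b, fun x hx => (c' x (QR hx)).symm⟩)).resolve_left n
  have zk := QK M (zK M a)
  have sk := QK M (sK M a)
  have Vz := V z (QR (zK M a)) (fun r hr => mem_cent1.1 (h.RK hr).1) fun e => E.z1 (au.inj _ zk e)
  have Vs := V s (QR (sK M a)) (fun r hr => mem_cent1.1 (h.RK hr).2) fun e => sz (.inl (au.inj _ sk e))
  have nz : δ z ≠ z := fun dz => by
    have l : im au (QK M) ≤ C[z] ⊓ C[s] := by rintro _ ⟨x, hx, rfl⟩; exact au.mem _ (QK M hx)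
    have n := im_nrm au (QK M) (nQ M)
    have cm : ∀ x ∈ im au (QK M), ∀ y ∈ im au (QK M), ⁅x, y⁆ ∈ zpowers z := by
      rintro _ ⟨x, hx, rfl⟩ _ ⟨y, hy, rfl⟩
      rw [← au_cm au (QK M hx) (QK M hy), E.mem_zp]
      exact (E.comm x hx.1 y hy.1).imp (fun e => by rw [e, au.one]) fun e => by rw [e, dz]
    by_cases c : img f (im au (QK M)) ≤ center Co0
    · have q : ∀ x ∈ Q ⊓ C[s], δ x ∈ Q ⊓ C[s] := fun x hx =>
        let ⟨g, b⟩ := A.tot (f := f) (l ⟨x, hx, rfl⟩).1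
        ⟨(M.aker b).2 (c (mem_img.2 ⟨_, ⟨x, hx, rfl⟩, b⟩)), (l ⟨x, hx, rfl⟩).2⟩
      let Y : Subgroup G :=
        { carrier := {r | r ∈ R' ∧ r⁻¹ * δ r ∈ Q}
          one_mem' := ⟨one_mem _, by rw [au.one, mul_one]; exact inv_mem (one_mem _)⟩
          mul_mem' := fun {p q} hp hq => ⟨mul_mem hp.1 hq.1, by
            have := mul_mem (conj_mem_of_norm (M.le.norm (inv_mem (h.RK hq.1).1)) hp.2) hq.2
            rw [au.mul _ (h.RK hp.1) _ (h.RK hq.1)]; simpa [mul_assoc] using this⟩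
          inv_mem' := fun {p} hp => ⟨inv_mem hp.1, by
            have := conj_mem_of_norm (M.le.norm (h.RK hp.1).1) (inv_mem hp.2)
            rw [au.inv (h.RK hp.1)]; simpa [mul_assoc] using this⟩ }
      have YR : Y ≤ R' := fun _ h => h.1
      have ab : ∀ p ∈ R', ∀ q ∈ R', ⁅p, q⁆ ∈ Q := fun p hp q hq => by
        obtain ⟨g, b⟩ := A.tot (f := f) (h.RK hp).1
        obtain ⟨g', c⟩ := A.tot (f := f) (h.RK hq).1
        refine (M.aker (((b.mul c).mul b.inv).mul c.inv)).2 ?_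
        rw [EE_comm (iR.le (mem_img.2 ⟨p, hp, b⟩)) (iR.le (mem_img.2 ⟨q, hq, c⟩))]; simp
      have nY : C[z] ⊓ C[s] ≤ N(Y) := fun k hk => mem_normalizer_fintype fun t ht =>
        ⟨conj_mem_of_norm (h.nR (h.KB hk)) ht.1, by
          have := conj_mem_of_norm (M.le.norm hk.1) (mul_mem ht.2 (ab _ (inv_mem (dR t ht.1)) _ (h.dK k hk)))
          rw [au.conj hk (h.RK ht.1)]; simpa [mul_assoc, commutatorElement_def] using this⟩
      obtain ⟨r, hr, dr⟩ : ∃ r ∈ (R' : Set G) \ (Q ⊓ C[s] : Subgroup G), δ r = r := by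
        classical
        have := Fintype.ofFinite ↥((R' : Set G) \ (Q ⊓ C[s] : Subgroup G))
        let φ : ↥((R' : Set G) \ (Q ⊓ C[s] : Subgroup G)) → ↥((R' : Set G) \ (Q ⊓ C[s] : Subgroup G)) := fun y =>
          ⟨δ y, dR _ y.2.1, fun c => y.2.2 (h.d3 _ (h.RK y.2.1) ▸ q _ (q _ c))⟩
        have e : ∀ y, φ (φ (φ y)) = y := fun y => Subtype.ext (h.d3 _ (h.RK y.2.1))
        have c7 := M.card_img (h.RK.trans kc)
        rw [iR, card_EE, ← KQ M h, ← KQ'] at c7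
        obtain ⟨y, hy⟩ := Equiv.Perm.exists_fixed_point_of_prime (p := 3) (n := 1) (σ := ⟨φ, φ ∘ φ, e, e⟩) (by
          rw [← Nat.card_eq_fintype_card, Nat.card_coe_set_eq, Set.ncard_diff QR, ← Nat.card_coe_set_eq, ← Nat.card_coe_set_eq]
          change ¬ 3 ∣ #R' - #(Q ⊓ C[s])
          omega) (Equiv.ext e)
        exact ⟨y, y.2, congrArg Subtype.val hy⟩
      have iY := eq_EE (iK ▸ img_mono (YR.trans h.RK)) (img_pg (h.pR.to_le YR)) (iK ▸ img_nrm nY) fun c => by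
        obtain ⟨g, b⟩ := A.tot (f := f) (h.RK hr.1).1
        exact hr.2 ⟨(M.aker b).2 (c (mem_img.2 ⟨r, ⟨hr.1, by rw [dr, inv_mul_cancel]; exact one_mem _⟩, b⟩)), (h.RK hr.1).2⟩
      rw [sup_of_le_left center_le_img] at iY
      have := le_of_img M (h.RK.trans kc) (iR.trans iY.symm).le YR fun x hx =>
        ⟨hx.1, Q.mul_mem (Q.inv_mem hx.2) (q x ⟨hx.2, (h.RK hx.1).2⟩).1⟩
      refine EE_nc (iX.ge.trans fun g hg => ?_)
      obtain ⟨x, hx, b⟩ := mem_img.1 hg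
      exact (M.aker b).1 (XX_le (fun r hr => (this hr).2) hx)
    have i := eq_EE (iK ▸ img_mono l) (img_pg ((h.pR.to_le (by rintro _ ⟨x, hx, rfl⟩; exact dR x (QR hx))))) (iK ▸ img_nrm n) c
    rw [sup_of_le_left center_le_img] at i
    have : r4 none (pt 4) true true ∈ cls M (im au (QK M)) := by
      rcases un (cls M (im au (QK M))) (cls2 M _) (clsN M iK.ge n) with h | h | h
      · obtain ⟨e, he, v, h1, h2⟩ := sgn_vec
        obtain ⟨y, y1, y2⟩ := mem_img.1 (i.ge he)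
        obtain ⟨x, b⟩ := M.sur v
        exact (n32 M h2 (h _ ⟨_, comm_mem_left (n (QK M ⟨M.mem b, mem_cent1.2 ((cm' M b a).2 h1)⟩)) y1, M.comm y2 b⟩)).elim
      · exact (h _).2 ⟨_, .refl _, d4_r4 _ _ _ _⟩
      · exact h _ fun i => (show (2 : ℤ) ∣ 4 by decide).trans (d4_r4 _ _ _ _ i)
    obtain ⟨x, hx, b⟩ := this
    obtain ⟨y, y1, y2⟩ := mem_img.1 (i.ge ⟨_, O0_mem.1, rfl⟩)
    have := (M.rk (M.comm y2 b)).1 (cm y y1 x hx)
    rw [show sgn O0_mem.1 • r4 none (pt 4) true true + r4 none (pt 4) true true = e8 (pt 4) 1 from Subtype.ext (funext fun i => by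
      change cf _ i + cf _ i = cf _ i
      rw [cf_sgn]; revert i; decide)] at this
    exact nz_of (norm_e8 _) (by norm_num) this
  have d3 := h.d3 z zk
  have inj : δ s ≠ δ z := fun e => sz (.inr (au.eq sk zk e))
  have m := au.mul _ zk _ sk
  rcases Vz.resolve_left nz with e | e
  · rw [e] at d3 inj ⊢
    refine ⟨⟨M, a, au, e, ?_⟩, QB, rfl⟩
    rcases Vs with c | c | c
    exacts [absurd (c ▸ d3) nz, absurd c inj, c.trans zs.symm]
  · have c0 : C[z] ⊓ C[z * s] = C[z] ⊓ C[s] := Subgroup.ext fun x => and_congr_right fun hx => by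
      change x ∈ C[z * s] ↔ x ∈ C[s]
      rw [mem_cent1, mem_cent1, ← mul_assoc, mem_cent1.1 hx, mul_assoc, mul_assoc, mul_left_cancel_iff]
    rw [e] at d3 inj m ⊢
    refine ⟨⟨M, zs ▸ M.mulz a (mem_zpowers z), c0 ▸ au, e, ?_⟩, QB, c0.symm⟩
    rcases Vs with c | c | c
    · rw [m, c]
    · rw [m, c, mul_assoc, ss, mul_one] at d3; exact absurd d3 nz
    · exact absurd c inj

end H3.AM
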