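import Cfsg.Agent.H3.AM3

/-! Elements of order eleven and dodecads. -/

set_option autoImplicit false
set_option linter.unusedSectionVars false
set_option linter.unusedVariables false

namespace H3.AM
open Cfsg H15 H19 H0 H0.Mo H0.Y Subgroup Function H7.AM Finset
open scoped commutatorElement Pointwise

universe u

def cb : ℕ := pack24 fun i => if i = 23 then 23 else 2 * i % 23
def ci : ℕ := pack24 fun i => if i = 23 then 23 else 12 * i % 23
/-- `t ↦ 2 t` -/
noncomputable def β : M24 := ⟨P cb, isM_mem (by decide +kernel)⟩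
theorem rb : Rep β.1 cb := isM_rep (by decide +kernel)
theorem ri : Rep β.1⁻¹ ci := (rb.inv (rep_P (g := ci) (by decide +kernel)) (by decide +kernel)) ▸ rep_P (by decide +kernel)
def bf (g : ℕ) (p : GolayPt) : GolayPt := pt (ap g (ix p))
theorem bk {σ : Equiv.Perm GolayPt} {g : ℕ} (h : Rep σ g) (k : ℕ) (p : GolayPt) : (σ ^ k) p = (bf g)^[k] p := by
  rw [Equiv.Perm.coe_pow, show ⇑σ = bf g from funext h.app']
def lgt (i : ℕ) : ℕ := [0, 0, 1, 8, 2, 0, 9, 9, 3, 5, 1, 4, 10, 7, 10, 8, 4, 3, 6, 7, 2, 6, 5, 0].getD i 0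
def rp (i : ℕ) : ℕ := if i = 0 then 0 else if i = 23 then 23 else if Nat.testBit 340831 i then 1 else 5
theorem lg_rp : ∀ p, (bf cb)^[lgt (ix p)] (pt (rp (ix p))) = p := by decide +kernel
theorem b11 : β ^ 11 = 1 := Subtype.ext (Equiv.ext fun p => (bk rb 11 p).trans (by revert p; decide +kernel))
theorem b1 : β ≠ 1 := fun h => absurd ((rb.app' (pt 1)).symm.trans (congrArg (fun σ : M24 => σ.1 (pt 1)) h)) (by decide +kernel)

theorem fix_cw : ∀ c ∈ cw, β.1 • c = c → c = ∅ ∨ c = univ ∨ c = S 340831 ∨ c = (S 340831)ᶜ :=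
  forall_cw (fun m => bimp (Nat.beq (act cb m) m) (bor (Nat.beq m 0) (bor (Nat.beq m 16777215) (bor (Nat.beq m 340831)
    (Nat.beq m 16436384))))) (by decide +kernel) fun m hm h e => by
    rw [rb.smul_S] at e
    simp only [bimp_iff, bor_iff, Nat.beq_eq] at h
    rcases h (S_inj (rb.lt_act m) (isC_lt hm) e) with rfl | rfl | rfl | rfl
    exacts [.inl S_zero, .inr (.inl S_all), .inr (.inr (.inl rfl)), .inr (.inr (.inr D0_compl))]

def cT (y1 y5 : ℕ) : ℕ := pack24 fun i => ix ((bf ci)^[lgt i] (pt (if rp i = 1 then y1 else if rp i = 5 then y5 else rp i)))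
theorem cT_ok : allTo2 (fun y => force (cT (y / 24) (y % 24)) fun g => anyTo (fun j => !isO (act g (ob j))) 12) 24 24 = true := by
  decide +kernel

/-- an element inverting `β` interchanges the two dodecads -/
theorem inv_swap {τ : M24} (e : τ * β * τ⁻¹ = β⁻¹) : τ.1 • S 340831 = (S 340831)ᶜ := by
  have e1 : τ.1 * β.1 = β.1⁻¹ * τ.1 := congrArg Subtype.val (mul_inv_eq_iff_eq_mul.1 e)
  have k : ∀ k p, τ.1 ((β.1 ^ k) p) = (β.1⁻¹ ^ k) (τ.1 p) := fun k p =>
    congrArg (fun σ : Equiv.Perm GolayPt => σ p) (SemiconjBy.pow_right e1 k)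
  have f : ∀ p, β.1 p = p → τ.1 p = pt 0 ∨ τ.1 p = pt 23 := fun p h => by
    have := k 1 p
    rw [pow_one, h, bk ri] at this
    generalize τ.1 p = q at this
    revert q; decide +kernel
  have t0 : τ.1 (pt 0) = pt 23 := (f _ (rb.app_eq (by omega) (by decide +kernel))).resolve_left fun h0 => by
    have h1 := (f _ (rb.app_eq (i := 23) (by omega) (by decide +kernel))).resolve_left fun h =>
      absurd (τ.1.injective (h.trans h0.symm)) (by decide)
    have r : Rep τ.1 (cT (ix (τ.1 (pt 1))) (ix (τ.1 (pt 5)))) := fun i hi => by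
      rw [cT, ap_pack24 _ (fun _ => (ix_lt _).trans (by omega)) hi, pt_ix]
      refine ⟨ix_lt _, ?_⟩
      conv_lhs => rw [← lg_rp (pt i), ix_pt hi, ← bk rb, k, bk ri]
      congr 1
      have : rp i = 0 ∨ rp i = 23 ∨ rp i = 1 ∨ rp i = 5 := by unfold rp; split_ifs <;> simp
      rcases this with h | h | h | h <;> simp [h, h0, h1, pt_ix]
    have := (allTo2_iff _ _ _).1 cT_ok (ix (τ.1 (pt 1)) * 24 + ix (τ.1 (pt 5))) (by
      have := ix_lt (τ.1 (pt 1)); have := ix_lt (τ.1 (pt 5)); omega)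
    have l := ix_lt (τ.1 (pt 5))
    rw [show (ix (τ.1 (pt 1)) * 24 + ix (τ.1 (pt 5))) / 24 = ix (τ.1 (pt 1)) by omega,
      show (ix (τ.1 (pt 1)) * 24 + ix (τ.1 (pt 5))) % 24 = ix (τ.1 (pt 5)) by omega, force_eq, anyTo_iff] at this
    obtain ⟨j, hj, n⟩ := this
    rw [(S_mem_octads_iff (r.lt_act _)).1 (r.smul_S _ ▸ smul_mem_octads τ.2 (ob_mem hj))] at n
    exact absurd n (by decide)
  have m : pt 23 ∈ τ.1 • S 340831 := t0 ▸ (apply_mem_smul_iff _ _ _).2 (by decide)
  have d := smul_mem_dodecads τ.2 D0_mem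
  rcases fix_cw _ d.1 (by
    rw [smul_smul, show β.1 * τ.1 = τ.1 * β.1⁻¹ by rw [eq_mul_inv_iff_mul_eq, mul_assoc, e1, mul_inv_cancel_left], ← smul_smul,
      ri.smul_S_eq (b := 340831) (by decide +kernel)]) with h | h | h | h
  · simp [h] at m
  · have := d.2; rw [h, card_univ, card_pt] at this; omega
  · exact absurd (h ▸ m) (by decide)
  · exact h

theorem cgA {u : Lam} {s : Finset GolayPt} (hs : s ∈ cw) (h : ∀ i, 8 ∣ cf u i - if i ∈ s then 4 else 0) : Cg u 0 ∨ Cg u lE :=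
  (cg8 (u := u - (oL hs + oL hs)) fun i => by
    have := h i; rw [cf_sub, cf_add, cf_oL]; split_ifs at * <;> omega).imp (cg_two u _).trans (cg_two u _).trans

theorem sq0 {x : ℤ} (h : x % 4 = 0) : 32 ∣ x ^ 2 - 4 * x := by
  obtain ⟨k, rfl⟩ := Int.dvd_of_emod_eq_zero h
  obtain ⟨m, hm⟩ := Int.even_mul_pred_self k
  exact ⟨m, by linear_combination 16 * hm⟩
theorem sq2 {x : ℤ} (h : x % 4 = 2) : 32 ∣ x ^ 2 - 4 := by
  obtain ⟨m, hm⟩ := Int.even_mul_succ_self (x / 4)
  have : x = 4 * (x / 4) + 2 := by omega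
  exact ⟨m, by rw [this]; linear_combination 16 * hm⟩

theorem sum_rp (F : ℕ → ℤ) : ∑ p : GolayPt, F (rp (ix p)) = F 0 + F 23 + 11 * F 1 + 11 * F 5 := by
  rw [sum_eq_multiset_sum]
  refine (congrArg _ (Multiset.map_map F (fun p => rp (ix p)) _).symm).trans ?_
  rw [show Multiset.map (fun p => rp (ix p)) univ.val =
    {0, 23} + (Multiset.replicate 11 1 + Multiset.replicate 11 5) by decide +kernel]
  simp; ring

theorem memD : ∀ i, i ∈ S 340831 ↔ rp (ix i) = 0 ∨ rp (ix i) = 1 := by decide +kernel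
theorem rp4 : ∀ i, rp (ix i) = 0 ∨ rp (ix i) = 23 ∨ rp (ix i) = 1 ∨ rp (ix i) = 5 := by decide +kernel

theorem fin11 {v : Lam} {c : Finset GolayPt} (f2 : ∀ i, cf v i = cf v (pt (rp (ix i)))) (l : LC (cf v) 0 c)
    (a : 8 ∣ cf v (pt 0) - cf v (pt 1)) (b : 8 ∣ cf v (pt 23) - cf v (pt 5)) : Cg (v - oL l.cw) 0 ∨ Cg (v - oL l.cw) lE := by
  have D := D0_mem.1
  have k : ∀ i, (i ∈ S 340831 ∧ 8 ∣ cf v i - cf v (pt 0)) ∨ (i ∉ S 340831 ∧ 8 ∣ cf v i - cf v (pt 23)) := fun i => by
    rw [memD, f2 i]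
    rcases rp4 i with h | h | h | h <;> rw [h] <;> omega
  by_cases x : cf v (pt 0) % 8 < 4 <;> by_cases y : cf v (pt 23) % 8 < 4 <;>
    [refine cgA cw_empty fun i => ?_; refine cgA (cw_compl D) fun i => ?_; refine cgA D fun i => ?_;
      refine cgA cw_univ fun i => ?_] <;> have := l.res i <;> rw [cf_sub, cf_oL] <;> rcases k i with ⟨h, e⟩ | ⟨h, e⟩ <;>
    simp only [mem_compl, h, notMem_empty, Finset.mem_univ, if_true, if_false, not_true, not_false_iff] <;>
    split_ifs at * <;> omega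

/-- the even fixed classes of type three -/
theorem cls11 {v : Lam} (h : prmH β • v = v) (ev : ∀ i, 2 ∣ cf v i) (n : ¬ 32 ∣ sqNorm (cf v)) :
    ∃ c, ∃ hc : c ∈ cw, (c = S 340831 ∨ c = (S 340831)ᶜ) ∧ (Cg (v - oL hc) 0 ∨ Cg (v - oL hc) lE) := by
  have f1 : ∀ i, cf v (β.1 i) = cf v i := fun i => by
    conv_lhs => rw [← h]
    exact cf_prm β.2 v i
  have f2 : ∀ i, cf v i = cf v (pt (rp (ix i))) := fun i => by
    conv_lhs => rw [← lg_rp i, ← bk rb]
    induction lgt (ix i) with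
    | zero => rfl
    | succ k ih => rw [pow_succ', Equiv.Perm.mul_apply, f1, ih]
  obtain ⟨m, c, l⟩ := lc v
  obtain rfl : m = 0 := by
    have a := l.res none; have := ev none; have := l.par
    split_ifs at a <;> omega
  have s := l.sum
  rw [sqNorm, sum_congr rfl fun i _ => congrArg (· ^ 2) (f2 i), sum_rp fun i => cf v (pt i) ^ 2] at n
  rw [sum_congr rfl fun i _ => f2 i, sum_rp fun i => cf v (pt i)] at s
  have r0 := l.res (pt 0); have r1 := l.res (pt 1); have r5 := l.res (pt 5); have r23 := l.res (pt 23)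
  have m0 : pt 0 ∈ S 340831 := by decide +kernel
  have m1 : pt 1 ∈ S 340831 := by decide +kernel
  have m5 : pt 5 ∉ S 340831 := by decide +kernel
  have m23 : pt 23 ∉ S 340831 := by decide +kernel
  have fin := fin11 f2 l
  have := fix_cw c l.cw (Finset.ext fun i => by
    have a := l.res i; have b := l.res (β.1⁻¹ i)
    rw [← f1, show β.1 (β.1⁻¹ i) = i from β.1.apply_symm_apply i] at b
    rw [← inv_apply_mem_iff]
    by_cases h : i ∈ c <;> by_cases h' : β.1⁻¹ i ∈ c <;> simp only [h, h', if_true, if_false] at a b ⊢ <;> first | omega | rfl)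
  generalize cf v (pt 0) = x, cf v (pt 1) = y, cf v (pt 5) = z, cf v (pt 23) = w at *
  rcases this with e | e | e | e <;>
    simp only [e, m0, m1, m5, m23, mem_compl, notMem_empty, Finset.mem_univ, if_true, if_false, not_true, not_false_iff, zero_add]
      at r0 r1 r5 r23
  · have := sq0 r0; have := sq0 r1; have := sq0 r5; have := sq0 r23; omega
  · have := sq2 r0; have := sq2 r1; have := sq2 r5; have := sq2 r23; omega
  · have := sq2 r0; have := sq2 r1; have := sq0 r5; have := sq0 r23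
    exact ⟨_, l.cw, .inl e, fin (by omega) (by omega)⟩
  · have := sq0 r0; have := sq0 r1; have := sq2 r5; have := sq2 r23
    exact ⟨_, l.cw, .inr e, fin (by omega) (by omega)⟩

theorem act11 {g : Co0} (hg : g ∈ NN) (e : g * prmH β * g⁻¹ = (prmH β)⁻¹) {c : Finset GolayPt} (hc : c ∈ cw)
    (h : c = S 340831 ∨ c = (S 340831)ᶜ) : Cg (g • oL hc) (oL hc + lE) := by
  obtain ⟨_, ⟨d, hd, rfl⟩, τ, rfl⟩ := exists_NN hg
  have e1 : τ * β * τ⁻¹ = β⁻¹ := eq_inv_of_mul_eq_one_left (eq_one_of_prmH (by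
    have := mul_mem (inv_mem (show sgn hd ∈ EE from ⟨d, hd, rfl⟩)) (conj_EE (inv_mem (prmH_mem β)) ⟨d, hd, rfl⟩)
    rw [← e] at this
    convert this using 1
    simp only [map_mul, map_inv, e, inv_inv]
    rw [← e]; group))
  have e2 : prmH β * sgn hd * (prmH β)⁻¹ = sgn hd := by
    have := congrArg prmH e1
    rw [map_mul, map_mul, map_inv, map_inv] at this
    rw [show sgn hd * prmH τ * prmH β * (sgn hd * prmH τ)⁻¹ = sgn hd * (prmH τ * prmH β * (prmH τ)⁻¹) * (sgn hd)⁻¹ by group,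
      this, mul_inv_eq_iff_eq_mul] at e
    rw [mul_assoc, e, mul_inv_cancel_left]
  rw [prm_sgn] at e2
  have e3 := fix_cw d hd (mono_inj (one_mem _) (one_mem _) _ _ e2).2
  have e4 : τ.1 • c = cᶜ := by
    rcases h with rfl | rfl
    · exact inv_swap e1
    · rw [smul_finset_compl', inv_swap e1]
  have e5 : ∀ i, cf (prmH τ • oL hc) i = if i ∈ c then 0 else 2 := fun i => by
    rw [show cf (prmH τ • oL hc) i = _ from cf_prm' τ.2 _ i, cf_oL]
    simp only [inv_apply_mem_iff, e4, mem_compl, ite_not]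
  have a : Cg (oL (cw_compl hc)) (oL hc + lE) := Cg.add_zero.1 (cg_zero.2 ⟨oD + lE, Subtype.ext (funext fun i => by
    change cf _ i + (cf _ i + cf _ i) = cf _ i + cf _ i + (cf _ i + cf _ i)
    simp only [cf_oL, cf_oD, cf_lE, mem_compl]; split_ifs <;> first | omega | contradiction)⟩)
  have : (sgn hd * prmH τ) • oL hc = oL (cw_compl hc) ∨ (sgn hd * prmH τ) • oL hc = -oL (cw_compl hc) := by
    have k : ∀ t : ℤ, (∀ i ∉ c, (if i ∈ d then -2 else 2) = t * 2) → (sgn hd * prmH τ) • oL hc = t • oL (cw_compl hc) :=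
      fun t ht => Subtype.ext (funext fun i => by
        change cf _ i = t * cf _ i
        have := ht i
        rw [mul_smul, cf_sgn, e5, cf_oL]
        by_cases h : i ∈ c <;> simp_all <;> split_ifs at * <;> omega)
    by_cases x : ∀ i ∉ c, i ∈ d
    · exact .inr (by rw [k (-1) fun i hi => by simp [x i hi], neg_one_zsmul])
    · refine .inl (by
        rw [k 1 fun i hi => if_neg fun h' => x fun j hj => ?_, one_zsmul]
        rcases e3 with rfl | rfl | rfl | rfl <;> rcases h with rfl | rfl <;> simp_all)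
  rcases this with e | e <;> rw [e]
  exacts [a, (Cg.neg _).trans a]

section
variable {G : Type u} [Group G] [Finite G] {Q : Subgroup G} {z s h : G} {f : C[z] →* Spor.Co1}
  {R : G → Lam → Prop} (M : MT Q z f R)
include M

theorem std11 (a : R s lE) (hh : h ∈ C[z] ⊓ C[s]) (e : h ^ 11 = 1) (n : h ≠ 1) : ∃ f R, MT Q z f R ∧ R s lE ∧
    (∃ i : ℕ, A f h (prmH β ^ i)) ∧ ∃ j : ℕ, A f (h ^ j) (prmH β) := by
  obtain ⟨γ, b, e', n'⟩ := lift M (by decide) hh.1 e n
  have hγ : γ ∈ NN := (img_s M a).le (mem_img.2 ⟨h, hh, b⟩)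
  haveI : Fact (Nat.Prime 11) := ⟨by norm_num⟩
  have c : (Nat.card NN).factorization 11 = 1 := by rw [card_NN]; decide +kernel
  obtain ⟨t, h1, -, h2⟩ := syl_cyc (π := MonoidHom.id NN) surjective_id (by rw [MonoidHom.ker_id]; exact .of_bot) (p := 11)
    (by norm_num) (by decide) c (B := zpowers ⟨γ, hγ⟩) (by
      rw [c, Nat.card_zpowers, orderOf_eq_prime (p := 11) (Subtype.ext e') fun h => n' (congrArg Subtype.val h)]; rfl)
    (σ := ⟨prmH β, prmH_mem β⟩) (orderOf_eq_prime (Subtype.ext (by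
      change prmH β ^ 11 = 1; rw [← map_pow, b11, map_one])) fun h => b1 (prmH_inj ((congrArg Subtype.val h).trans (map_one _).symm)))
  obtain ⟨k, hk⟩ := isConj_iff.1 h2
  have hk : k.1 * t.1 * k.1⁻¹ = prmH β := congrArg Subtype.val hk
  obtain ⟨i, hi⟩ := mem_powers_iff_mem_zpowers.2 (h1.le (mem_zpowers _))
  obtain ⟨j, hj⟩ := mem_powers_iff_mem_zpowers.2 (h1.ge (mem_zpowers _))
  have hi : t.1 ^ i = γ := congrArg Subtype.val hi
  have hj : γ ^ j = t.1 := congrArg Subtype.val hj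
  have tw : ∀ {x y}, A f x y → A ((MulAut.conj (QuotientGroup.mk k.1⁻¹ : Spor.Co1)⁻¹).toMonoidHom.comp f) x (k.1 * y * k.1⁻¹) :=
    fun c => ⟨c.1, by simp [c.2]⟩
  exact ⟨_, _, M.twist k.1⁻¹, M.cg a (stab_E.2 (inv_mem k.2)).symm, ⟨i, by rw [← hk, conj_pow, hi]; exact tw b⟩,
    j, by rw [← hk, ← hj]; exact tw (b.pow j)⟩
end

theorem dd : DD.{u} := fun G _ _ Q z s f R M a => by
  constructor
  · intro h hh e
    obtain ⟨f, R, M, a, i, b⟩ : ∃ f R, MT Q z f R ∧ R s lE ∧ ∃ i : ℕ, A f h (prmH β ^ i) := by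
      by_cases n : h = 1
      · exact ⟨f, R, M, a, 0, n ▸ .one (one_mem _)⟩
      · obtain ⟨f, R, M, a, b, -⟩ := std11 M a hh e n
        exact ⟨f, R, M, a, b⟩
    obtain ⟨x, c⟩ := M.sur (oL D0_mem.1)
    refine ⟨x, ⟨⟨M.mem c, (cs M a c).2 fun i => by rw [cf_oL]; split_ifs <;> omega⟩, M.cent_of_fix (by decide) e b c
      (pow_fix (Subtype.ext (funext fun i => ?_)) i)⟩, (M.le.es.sq _ (M.mem c)).resolve_left fun h => ?_⟩
    · change cf _ i = cf _ i
      rw [show cf (prmH β • oL D0_mem.1) i = _ from cf_prm' β.2 _ i, cf_oL, cf_oL]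
      simp only [inv_apply_mem_iff, rb.smul_S_eq (a := 340831) (b := 340831) (by decide +kernel)]
    · have := (sq' M c).1 h
      rw [show sqNorm (cf (oL D0_mem.1)) = _ from norm_oc _ _, D0_mem.2] at this
      omega
  · intro h hh e n k hk i x hx xx
    obtain ⟨f, R, M, a, -, j, b⟩ := std11 M a hh e n
    have e1 : prmH β ^ 11 = 1 := by rw [← map_pow, b11, map_one]
    obtain ⟨v, hv, r⟩ := M.exists_fix (by decide) e1 b ⟨hx.1.1, mem_cent1.2 ((show Commute x h from mem_cent1.1 hx.2).pow_right j)⟩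
    obtain ⟨c, hc, h1, h2⟩ := cls11 hv ((cs M a r).1 hx.1.2) fun d => M.le.es.z1 (xx ▸ (sq' M r).2 d)
    obtain ⟨g, d⟩ := A.tot (f := f) hk.1
    have hg : g ∈ NN := (img_s M a).le (mem_img.2 ⟨k, hk, d⟩)
    have := ((d.mul b).mul d.inv).mul b
    rw [← conj_pow, i, inv_pow, inv_mul_cancel] at this
    have t := act11 hg (by
      rcases H15.mem_center_iff.1 this.cen with e | e
      · exact eq_inv_of_mul_eq_one_left e
      · have := congrArg (· ^ 11) (eq_mul_inv_of_mul_eq e)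
        simp only [conj_pow, e1, (show Commute coN _ from (Subgroup.mem_center_iff.1 coN_mem_center _).symm).mul_pow, inv_pow] at this
        have c2 : coN * coN = 1 := EE_sq (center_le_EE coN_mem_center)
        rw [show coN ^ 11 = (coN * coN) ^ 5 * coN by rw [← sq, ← pow_mul, ← pow_succ], c2] at this
        simp only [mul_one, mul_inv_cancel, one_pow, inv_one] at this
        rw [one_mul] at this
        exact eq_inv_of_mul_eq_one_left (e.trans this.symm)) hc h1
    have : Cg (g • v) (v + lE) := by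
      have p : Cg (g • (v - oL hc)) (v - oL hc) := h2.elim (fun e => (by simpa [co_zero] using e.smul g : Cg _ 0).trans e.symm)
        fun e => ((e.smul g).trans (stab_E.2 hg)).trans e.symm
      have := p.add t
      rwa [← co_add, sub_add_cancel, ← add_assoc, sub_add_cancel] at this
    rw [← mul_assoc]
    exact (M.uniq (M.mul r a) (M.act d r)).1 this.symm

end H3.AM
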