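import Cfsg.Agent.H26.O7J
import Cfsg.Agent.H27.C6b
import Cfsg.Agent.H27.Asch4
import Cfsg.Agent.H21.D3a

/-! `A₉` in characteristic three is realised over the prime field. -/

set_option autoImplicit false
set_option linter.unusedVariables false

open Cfsg Equiv Equiv.Perm H26.O7
namespace H3.O7
universe u

theorem ct_pow {α : Type*} [Fintype α] [DecidableEq α] (σ : Perm α) {k : ℕ} (h : k.Coprime (orderOf σ)) :
    (σ ^ k).cycleType = σ.cycleType := by
  induction σ using cycle_induction_on with
  | base_one => simp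
  | base_cycles σ c => rw [(c.pow_iff.2 h).cycleType, c.cycleType, support_pow_coprime h]
  | induction_disjoint σ τ d _ a b =>
    rw [d.orderOf] at h
    rw [d.commute.mul_pow, (d.pow_disjoint_pow k k).cycleType_mul, d.cycleType_mul,
      a (h.coprime_dvd_right (Nat.dvd_lcm_left _ _)), b (h.coprime_dvd_right (Nat.dvd_lcm_right _ _))]

theorem conj9 (g : alternatingGroup (Fin 9)) (h : (3 : ℕ).Coprime (orderOf g)) : IsConj g (g ^ 3) := by
  rw [← Subgroup.orderOf_coe] at h
  obtain ⟨c, hc⟩ := isConj_iff.1 (isConj_iff_cycleType_eq.2 (ct_pow g.1 h).symm)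
  by_cases e : c ∈ alternatingGroup (Fin 9)
  · exact isConj_iff.2 ⟨⟨c, e⟩, Subtype.ext hc⟩
  have : ¬ Subgroup.centralizer {g.1} ≤ alternatingGroup (Fin 9) := fun k => by
    obtain ⟨o, s, -⟩ := centralizer_le_alternating_iff.1 k
    have l := g.1.sum_cycleType_le
    have f : ∀ c ∈ g.1.cycleType, c = 5 ∨ c = 7 := fun c hc => by
      have := two_le_of_mem_cycleType hc
      have := Multiset.single_le_sum (fun _ _ => Nat.zero_le _) c hc
      have := Nat.odd_iff.1 (o c hc)
      have : ¬ 3 ∣ c := fun d => (Nat.prime_three.coprime_iff_not_dvd.1 h) (d.trans (dvd_of_mem_cycleType hc))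
      simp only [Fintype.card_fin] at l
      omega
    simp only [Fintype.card_fin] at l s
    generalize g.1.cycleType = m at f l s
    induction m using Multiset.induction_on with
    | empty => simp at s
    | cons a m _ =>
      induction m using Multiset.induction_on with
      | empty => have := f a (by simp); simp at s; omega
      | cons b m _ => have := f a (by simp); have := f b (by simp); simp at l; omega
  obtain ⟨d, hd, e'⟩ := SetLike.not_le_iff_exists.1 this
  rw [Subgroup.mem_centralizer_singleton_iff] at hd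
  refine isConj_iff.2 ⟨⟨c * d, ?_⟩, Subtype.ext ?_⟩
  · rw [mem_alternatingGroup] at *
    rw [map_mul, Int.units_ne_iff_eq_neg.1 e, Int.units_ne_iff_eq_neg.1 e']; rfl
  · change c * d * g.1 * (c * d)⁻¹ = g.1 ^ 3
    rw [← hc, mul_assoc c, hd]; group

theorem a9f : A9F.{u} := fun F _ _ H P h h3 ⟨e⟩ => by
  haveI : Fact (Nat.Prime 3) := ⟨Nat.prime_three⟩
  haveI : CharP F 3 := (CharP.charP_iff_prime_eq_zero Nat.prime_three).2 (by exact_mod_cast h3)
  let T : P → F := fun g => g.1.1.trace
  have p1 : ∀ g, T (g ^ 3) = T g ^ 3 := fun g => by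
    simp only [T, SubgroupClass.coe_pow, Units.val_pow_eq_pow_val, Matrix.trace_eq_neg_charpoly_coeff]
    rw [H21.D3.charpoly_pow_char, Polynomial.coeff_map, ← frobenius_def, map_neg]
  have p : ∀ n g, T (g ^ 3 ^ n) = T g ^ 3 ^ n := fun n g => by
    induction n with
    | zero => simp
    | succ n ih => rw [pow_succ, pow_mul, pow_mul, p1, ih]
  have t : ∀ g, T g ^ 3 = T g := fun g => by
    have o := (orderOf_pos (e g)).ne'
    have c := conj9 (e g ^ ordProj[3] (orderOf (e g))) (by
      rw [orderOf_pow_of_dvd (by positivity) (Nat.ordProj_dvd _ _)]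
      exact Nat.coprime_ordCompl Nat.prime_three o)
    generalize (orderOf (e g)).factorization 3 = n at c
    obtain ⟨x, hx⟩ := isConj_iff.1 (e.symm.toMonoidHom.map_isConj c)
    simp only [MulEquiv.coe_toMonoidHom, map_pow, MulEquiv.symm_apply_apply] at hx
    have : T ((g ^ 3 ^ n) ^ 3) = T (g ^ 3 ^ n) := by
      rw [← hx]; exact Matrix.trace_units_conj x.1 _
    rw [p1, p, ← pow_mul, mul_comm, pow_mul] at this
    exact (iterateFrobenius F 3 n).injective (by simpa only [iterateFrobenius_def] using this)
  let F₀ : Subfield F := (frobenius F 3).eqLocusField (RingHom.id F)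
  have top : F₀ = ⊤ := by
    by_contra n
    exact h.core.no_subfield F₀ n (H27.Asch.realisable_of_trace (H27.C6.alg_of_abs h.core.absIrred)
      fun x hx => t ⟨x, hx⟩)
  have a : ∀ x : F, x ^ 3 = x := fun x => (top ▸ Subfield.mem_top x : x ∈ F₀)
  obtain ⟨n, -, hn⟩ := FiniteField.card F 3
  have l : Fintype.card F ≤ 3 := by
    classical
    have : (Finset.univ : Finset F) ⊆ {0, 1, -1} := fun x _ => by
      have : x * (x - 1) * (x + 1) = 0 := by linear_combination a x
      simp only [mul_eq_zero, sub_eq_zero, add_eq_zero_iff_eq_neg] at this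
      simp only [Finset.mem_insert, Finset.mem_singleton]; tauto
    exact (Finset.card_le_card this).trans Finset.card_le_three
  have := Nat.le_self_pow n.ne_zero 3
  omega

end H3.O7
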