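import Cfsg.Agent.H26.O7B
import Cfsg.Agent.H12.O7a
import Cfsg.Agent.S2119

/-! `A₈` preserves a root system of type `E₇`. -/

set_option autoImplicit false
set_option linter.unusedVariables false

open Cfsg Equiv Equiv.Perm H26.O7 H12 QuadraticMap MulAction Finset
namespace H3.O7
universe u
attribute [-simp] H11.coe_qOdd
abbrev A8 := alternatingGroup (Fin 8)

def dt (i j k l : Fin 8) (h : i ≠ j := by decide) (h' : k ≠ l := by decide) : A8 :=
  ⟨swap i j * swap k l, by simp [mem_alternatingGroup, h, h']⟩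

theorem two8 {a b c d : Fin 8} (h : a ≠ b) (h' : c ≠ d) : ∃ g : A8, g.1 a = c ∧ g.1 b = d := by
  haveI := alternatingGroup.isMultiplyPretransitive (Fin 8)
  exact is_two_pretransitive_iff.1 (isMultiplyPretransitive_of_le (n := Nat.card (Fin 8) - 2) (by simp) (by simp)) h h'

def gn : Fin 3 → A8 := ![dt 1 2 3 4, dt 1 5 2 6, dt 2 4 3 7]
def wd (l : List (Fin 3)) : A8 := (l.map gn).prod
def tb : Fin 8 → Fin 8 → List (Fin 3) := ![fun _ => [],
  ![[], [], [0], [0, 2, 0], [2, 0], [1], [1, 0], [2, 0, 2, 0]],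
  ![[], [], [], [1, 0, 1, 2], [2], [0, 2, 1, 2, 0], [1, 2, 1, 2], [2, 1, 0, 1, 2]],
  ![[], [], [], [], [1, 0, 1], [1, 0, 2, 0, 1], [1, 2, 0, 1], [1, 2, 1]],
  ![[], [], [], [], [], [1, 2, 0, 2, 1], [0, 1, 0, 2, 0, 2, 0, 1, 0], [2, 0, 2, 1, 0, 1, 0, 2, 0, 2]],
  ![[], [], [], [], [], [], [1, 0, 2, 1, 0, 1, 2, 1, 0], [1, 2, 1, 0, 1, 2, 0, 1, 0]], fun _ => [], fun _ => []]
theorem tb_ok : ∀ k j : Fin 8, 0 < k → k < 6 → k ≤ j → (wd (tb k j)).1 k = j ∧ ∀ i < k, (wd (tb k j)).1 i = i := by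
  decide +kernel

theorem gen7 (K : Subgroup A8) (h : ∀ i, gn i ∈ K) (σ : A8) (h0 : σ.1 0 = 0) : σ ∈ K := by
  have w : ∀ l, wd l ∈ K := fun l => K.list_prod_mem (by simpa using fun i _ => h i)
  suffices ∀ n, n ≤ 5 → ∀ σ : A8, (∀ i : Fin 8, i.1 + n < 6 → σ.1 i = i) → σ ∈ K from
    this 5 le_rfl σ fun i hi => by obtain rfl : i = 0 := Fin.ext (by omega); exact h0
  intro n
  induction n with
  | zero =>
    intro _ σ hσ
    have s : σ.1.support.card ≤ 2 := (card_le_card (t := {6, 7}) fun i hi => by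
      have := mt (hσ i) (mem_support.1 hi)
      simp only [mem_insert, mem_singleton]; omega).trans card_le_two
    rcases s.lt_or_eq with s | s
    · exact (Subtype.ext (card_support_le_one.1 (by omega)) : σ = 1) ▸ one_mem K
    · exact absurd ((card_support_eq_two.1 s).sign_eq.symm.trans σ.2) (by decide)
  | succ n ih =>
    intro hn σ hσ
    let k : Fin 8 := ⟨5 - n, by omega⟩
    have : k ≤ σ.1 k := not_lt.1 fun l => l.ne (σ.1.injective (hσ _ (by rw [Fin.lt_def] at l; simp only [k] at l ⊢; omega)))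
    obtain ⟨a, b⟩ := tb_ok k _ (by rw [Fin.lt_def]; simp only [k]; omega) (by rw [Fin.lt_def]; simp only [k]; omega) this
    refine (K.mul_mem_cancel_left (inv_mem (w (tb k (σ.1 k))))).1 (ih (by omega) _ fun i hi => ?_)
    change (wd _).1⁻¹ (σ.1 i) = i
    rw [inv_eq_iff_eq]
    by_cases e : i = k
    · rw [e, a]
    · have : i.1 ≠ 5 - n := fun x => e (Fin.ext x)
      rw [hσ i (by omega), b i (by rw [Fin.lt_def]; simp only [k]; omega)]

variable {K : Type u} [Field K] (R : Rp K A8)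

theorem cj (x y c : A8) (h : c.1 * x.1 = y.1 * c.1 := by decide) : R.r y = R.r x :=
  (R.r_isConj (isConj_iff.2 ⟨c, mul_inv_eq_iff_eq_mul.2 (Subtype.ext h)⟩)).symm

theorem r2 : R.r (dt 0 1 2 3) = 2 := by
  let S : Fin 4 → A8 := ![dt 0 1 2 3, dt 0 2 1 3, dt 4 5 6 7, dt 4 6 5 7]
  have m : ∀ i, S i ∈ Subgroup.closure (Set.range S) := fun i => Subgroup.subset_closure ⟨i, rfl⟩
  obtain ⟨b, w, h⟩ := wt K _ R (Subgroup.closure (Set.range S)) (sq_closure
    (by rintro _ ⟨i, rfl⟩; exact Subtype.ext (by revert i; decide))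
    (by rintro _ ⟨i, rfl⟩ _ ⟨j, rfl⟩; exact Subtype.ext (by revert i j; decide)))
  have e := fun t a b => (e2 K _ R).1 t a b
  have e1 := e (S 0) (Subtype.ext (by decide)) (fun h => absurd (congrArg Subtype.val h) (by decide))
  have e2 := e (S 0 * S 2) (Subtype.ext (by decide)) (fun h => absurd (congrArg Subtype.val h) (by decide))
  let y := dt 1 2 2 3
  let z := dt 5 6 6 7
  let s := dt 0 4 1 5 * dt 2 6 3 7
  have : ∀ i, ∃ n : ℕ, (1 + w i (S 0) : ℤ) * (1 + w i (S 1)) * (1 + w i (S 2)) * (1 + w i (S 3)) = 16 * n := fun i => by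
    rcases Int.units_eq_one_or (w i (S 0)) with a | a <;> rcases Int.units_eq_one_or (w i (S 1)) with b | b <;>
      rcases Int.units_eq_one_or (w i (S 2)) with c | c <;> rcases Int.units_eq_one_or (w i (S 3)) with d | d <;>
      rw [a, b, c, d] <;> first | exact ⟨1, rfl⟩ | exact ⟨0, rfl⟩
  choose n hn using this
  have t := sum_congr rfl fun i (_ : i ∈ univ) => hn i
  rw [← mul_sum, ← Nat.cast_sum] at t
  have m01 := mul_mem (m 0) (m 1)
  have m23 := mul_mem (m 2) (m 3)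
  have t1 := fun i => h.tr (m i)
  have t2 := fun i j => h.tr (mul_mem (m i) (m j))
  have t3 := fun i => h.tr (mul_mem (m i) m23)
  have t4 := fun i => h.tr (mul_mem m01 (m i))
  have t5 := h.tr (mul_mem m01 m23)
  simp only [h.mul _ (m _) _ (m _), h.mul _ (m _) _ m23, h.mul _ m01 _ (m _), h.mul _ m01 _ m23, Units.val_mul] at t2 t3 t4 t5
  have a1 := t1 0; have a2 := t1 1; have a3 := t2 0 1; have b1 := t1 2; have b2 := t1 3; have b3 := t2 2 3
  have c1 := t2 0 2; have c2 := t2 0 3; have c3 := t3 0; have d1 := t2 1 2; have d2 := t2 1 3; have d3 := t3 1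
  have f1 := t4 2; have f2 := t4 3
  rw [cj R (S 0) (S 1) y] at a2
  rw [cj R (S 0) (S 0 * S 1) y⁻¹] at a3
  rw [cj R (S 0) (S 2) s] at b1
  rw [cj R (S 0) (S 3) (z * s)] at b2
  rw [cj R (S 0) (S 2 * S 3) (z⁻¹ * s)] at b3
  rw [cj R (S 0 * S 2) (S 0 * S 3) z] at c2
  rw [cj R (S 0 * S 2) (S 0 * (S 2 * S 3)) z⁻¹] at c3
  rw [cj R (S 0 * S 2) (S 1 * S 2) y] at d1
  rw [cj R (S 0 * S 2) (S 1 * S 3) (y * z)] at d2
  rw [cj R (S 0 * S 2) (S 1 * (S 2 * S 3)) (y * z⁻¹)] at d3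
  rw [cj R (S 0 * S 2) (S 0 * S 1 * S 2) y⁻¹] at f1
  rw [cj R (S 0 * S 2) (S 0 * S 1 * S 3) (y⁻¹ * z)] at f2
  rw [cj R (S 0 * S 2) (S 0 * S 1 * (S 2 * S 3)) (y⁻¹ * z⁻¹)] at t5
  have : (16 : ℤ) * (∑ i, n i : ℕ) = 112 - 12 * R.r (S 0) - 18 * R.r (S 0 * S 2) := by
    rw [← t]
    simp only [Fin.sum_univ_seven] at *
    linear_combination a1 + a2 + a3 + b1 + b2 + b3 + c1 + c2 + c3 + d1 + d2 + d3 + f1 + f2 + t5
  change R.r (S 0) = 2
  omega

structure Vs (v : Fin 8 → V K) (c : K) : Prop where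
  c0 : c ≠ 0
  act : ∀ σ i, R.ρ σ (v i) = v (σ.1 i)
  sum : ∑ i, v i = 0
  pol : ∀ i j, polar (Q K) (v i) (v j) = c - if i = j then 8 * c else 0
  nd : ∀ y, (∀ j, polar (Q K) y (v j) = 0) → y = 0

theorem polar_sum {ι : Type*} (s : Finset ι) (f : ι → V K) (y : V K) :
    polar (Q K) y (∑ i ∈ s, f i) = ∑ i ∈ s, polar (Q K) y (f i) := map_sum (polarBilin (Q K) y) f s

theorem line {v : Fin 8 → V K} (a : ∀ σ i, R.ρ σ (v i) = v (σ.1 i)) (s : ∑ i, v i = 0) {x : V K} {i : Fin 8}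
    (hx : ∀ σ : A8, σ.1 i = i → R.ρ σ x = x) : ∃ b, ∀ j, polar (Q K) x (v j) = b - if i = j then 8 * b else 0 := by
  obtain ⟨k, hk⟩ := exists_ne i
  have e : ∀ j, i ≠ j → polar (Q K) x (v j) = polar (Q K) x (v k) := fun j hj => by
    obtain ⟨σ, h1, h2⟩ := two8 hk.symm hj
    rw [← h2, ← a, ← R.polar_ρ σ x (v k), hx σ h1]
  refine ⟨polar (Q K) x (v k), fun j => ?_⟩
  split_ifs with h
  · have := polar_sum univ v x
    rw [s, polar_zero_right, ← add_sum_erase _ _ (mem_univ i), sum_congr rfl fun j hj => e j (ne_of_mem_erase hj).symm] at this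
    simp only [sum_const, card_erase_of_mem (mem_univ i), card_univ, Fintype.card_fin, nsmul_eq_mul] at this
    rw [← h]
    push_cast at this
    linear_combination -this
  · rw [e j h, sub_zero]

theorem ex_v (I : R.Irr) : ∃ v c, Vs R v c := by
  obtain ⟨x, x0, h1, h2, h3⟩ := fx3 (R.ρ (gn 0)) (R.ρ (gn 1)) (R.ρ (gn 2)) (by
    have a := cj R (dt 0 1 2 3) (gn 0) (dt 0 1 1 2 * dt 2 3 3 4)
    have b := cj R (gn 0) (gn 1) (dt 2 3 2 5 * dt 4 6 0 7)
    have c := cj R (gn 0) (gn 2) (dt 1 7 1 4)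
    rw [r2] at a
    rw [a] at b c
    rw [finrank_V]
    exact (by omega : R.r (gn 0) + R.r (gn 1) + R.r (gn 2) < 7))
  have st : ∀ σ : A8, σ.1 0 = 0 → R.ρ σ x = x := gen7 (R.St x) fun i => by fin_cases i; exacts [h1, h2, h3]
  have : ∀ i, ∃ t : A8, t.1 0 = i := fun i => by
    obtain ⟨k, hk⟩ := exists_ne i
    exact (two8 (b := 1) (by decide) hk.symm).imp fun _ h => h.1
  choose t ht using this
  let v := fun i => R.ρ (t i) x
  have a : ∀ σ i, R.ρ σ (v i) = v (σ.1 i) := fun σ i => by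
    have := st ((t (σ.1 i))⁻¹ * σ * t i) (by
      change (t _).1⁻¹ (σ.1 ((t i).1 0)) = 0
      rw [inv_eq_iff_eq, ht, ht])
    simp only [v]
    conv_rhs => rw [← this, ← R.ρ_mul, mul_assoc, mul_inv_cancel_left, R.ρ_mul]
  have s : ∑ i, v i = 0 := I.fixed fun σ => by
    rw [map_sum, sum_congr rfl fun i _ => a σ i]; exact Equiv.sum_comp σ.1 v
  have v0 : v 0 ≠ 0 := fun e => x0 ((R.ρ (t 0)).map_eq_zero_iff.1 e)
  have nd : ∀ y, (∀ j, polar (Q K) y (v j) = 0) → y = 0 := fun y hy => by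
    rcases I (Submodule.span K (Set.range v)) (fun g z hz => by
      refine (Submodule.map_span_le (R.ρ g : V K →ₗ[K] V K) _ _).2 ?_ ⟨z, hz, rfl⟩
      rintro _ ⟨i, rfl⟩
      exact Submodule.subset_span ⟨_, (a g i).symm⟩) with e | e
    · exact absurd (Submodule.span_eq_bot.1 e _ ⟨0, rfl⟩) v0
    · refine Q_nd R.two y fun z => ?_
      exact Submodule.span_le.2 (show Set.range v ⊆ LinearMap.ker (polarBilin (Q K) y) by rintro _ ⟨j, rfl⟩; exact hy j)
        (e ▸ Submodule.mem_top : z ∈ _)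
  obtain ⟨c, hc⟩ := line R a s (x := v 0) (i := 0) fun σ h => by rw [a, h]
  refine ⟨v, c, fun e => v0 (nd _ fun j => by simp [hc, e]), a, s, fun i j => ?_, nd⟩
  rw [← ht i, ← a, ← (t i).1.apply_symm_apply j, ← a, R.polar_ρ, hc]
  simp only [Equiv.eq_symm_apply, Equiv.apply_symm_apply]

/-- integral coordinates -/
def φ (v : Fin 8 → V K) (a : Fin 8 → ℤ) : V K := ∑ i, (a i : K) • v i
def Lt (a : Fin 8 → ℤ) : Prop := 4 ∣ ∑ i, a i ∧ 8 * ∑ i, a i * a i = (∑ i, a i) ^ 2 + 16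
def dig (n : ℕ) (i : Fin 8) : ℤ := (n / 3 ^ i.1 % 3 : ℕ) - 1
def D8 : Finset ℕ := (range 6561).filter fun n =>
  ∑ i, dig n i = 0 ∧ ∑ i, dig n i * dig n i = 2 ∨ ∑ i, dig n i = 4 ∧ ∑ i, dig n i * dig n i = 4
theorem D8c : D8.card = 126 := by decide +kernel

theorem Lt.dig {a : Fin 8 → ℤ} (h : Lt a) : ∃ n ∈ D8, ∃ k, ∀ i, a i = dig n i + k := by
  obtain ⟨⟨m, hm⟩, h⟩ := h
  let b := fun i => a i - m / 2
  have s : ∑ i, b i = 4 * (m % 2) := by simp [b, hm]; omega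
  have q : ∑ i, b i * b i = 2 * (m % 2) ^ 2 + 2 := by
    have : m = 2 * (m / 2) + m % 2 := by omega
    simp only [b, Fin.sum_univ_eight] at *
    generalize m / 2 = k, m % 2 = r at *
    subst this
    have : 8 * ((a 0 - k) * (a 0 - k) + (a 1 - k) * (a 1 - k) + (a 2 - k) * (a 2 - k) + (a 3 - k) * (a 3 - k) +
      (a 4 - k) * (a 4 - k) + (a 5 - k) * (a 5 - k) + (a 6 - k) * (a 6 - k) + (a 7 - k) * (a 7 - k)) = 8 * (2 * r ^ 2 + 2) := by
      rw [hm] at h; linear_combination h - 16 * k * hm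
    omega
  have r : ∀ i, -1 ≤ b i ∧ b i ≤ 1 := fun i => by
    have h1 := single_le_sum (f := fun i => b i * b i) (fun i _ => mul_self_nonneg _) (mem_univ i)
    have h2 := single_le_sum (f := fun i => b i * b i - b i) (fun i _ => by nlinarith [Int.le_self_sq (b i)]) (mem_univ i)
    rw [sum_sub_distrib, s] at h2
    rw [q] at h1 h2
    rcases Int.emod_two_eq_zero_or_one m with e | e <;> rw [e] at h1 h2 <;> constructor <;> nlinarith
  let f : Fin 8 → Fin 3 := fun i => ⟨(b i + 1).toNat, by have := r i; omega⟩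
  have e : ∀ i, H3.O7.dig (finFunctionFinEquiv f) i = b i := fun i => by
    rw [H3.O7.dig, ← finFunctionFinEquiv_symm_apply_val, symm_apply_apply]
    have := r i
    simp only [f]; omega
  refine ⟨_, mem_filter.2 ⟨mem_range.2 (finFunctionFinEquiv f).2, ?_⟩, m / 2, fun i => by rw [e]; simp [b]⟩
  simp only [e, s, q]
  rcases Int.emod_two_eq_zero_or_one m with e | e <;> simp [e]

theorem D8.lt {n : ℕ} (h : n ∈ D8) : Lt (dig n) := by
  rcases (mem_filter.1 h).2 with ⟨a, b⟩ | ⟨a, b⟩ <;> rw [Lt, a, b] <;> decide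

variable {R} {v : Fin 8 → V K} {c : K} (h : Vs R v c)
include h

theorem Vs.p1 (a : Fin 8 → ℤ) (j : Fin 8) : polar (Q K) (v j) (φ v a) = c * (∑ i, a i - 8 * a j : ℤ) := by
  simp [φ, polar_sum, h.pol, mul_sub, ← sum_mul]; ring
theorem Vs.p2 (a b : Fin 8 → ℤ) :
    polar (Q K) (φ v a) (φ v b) = c * ((∑ i, a i) * (∑ i, b i) - 8 * ∑ i, a i * b i : ℤ) := by
  rw [φ.eq_1 v b, polar_sum]
  simp only [polar_smul_right, polar_comm _ (φ v a) (v _), h.p1, Fin.sum_univ_eight, smul_eq_mul]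
  push_cast; ring
theorem Vs.q {a : Fin 8 → ℤ} (l : Lt a) : Q K (φ v a) = -8 * c := by
  have := h.p2 a a
  rw [polar_self', l.2] at this
  refine mul_left_cancel₀ R.two (this.trans ?_)
  push_cast; ring
theorem Vs.e8 : (8 : K) ≠ 0 := by rw [show (8 : K) = 2 ^ 3 by norm_num]; exact pow_ne_zero _ R.two
theorem Vs.rf {a b : Fin 8 → ℤ} (l : Lt a) (l' : Lt b) : ∃ d, Lt d ∧ (refl (Q K) (φ v a)).1 (φ v b) = φ v d := by
  obtain ⟨m, hm⟩ := l.1
  obtain ⟨n, hn⟩ := l'.1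
  refine ⟨fun i => b i + (2 * m * n - ∑ i, a i * b i) * a i, ⟨?_, ?_⟩, ?_⟩
  · rw [sum_add_distrib, ← mul_sum]; exact l'.1.add (l.1.mul_left _)
  · have h1 := l.2; have h2 := l'.2
    rw [sum_add_distrib, ← mul_sum, hm, hn]
    rw [hm] at h1; rw [hn] at h2
    generalize hk : 2 * m * n - ∑ i, a i * b i = k
    simp only [Fin.sum_univ_eight] at *
    linear_combination h2 + k ^ 2 * h1 - 16 * k * hk
  · rw [H12.refl_apply, h.q l, h.p2, hm, hn]
    simp only [φ, Int.cast_add, Int.cast_mul, add_smul, sum_add_distrib, mul_smul _ (a _ : K), ← smul_sum]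
    rw [sub_eq_add_neg, ← neg_smul]
    have := h.c0; have := h.e8
    congr 2; push_cast; field_simp; ring
theorem Vs.dig {a : Fin 8 → ℤ} (l : Lt a) : ∃ n ∈ D8, φ v (dig n) = φ v a := by
  obtain ⟨n, hn, k, e⟩ := l.dig
  exact ⟨n, hn, by simp only [φ, e, Int.cast_add, add_smul, sum_add_distrib, ← smul_sum, h.sum, smul_zero, add_zero]⟩

/-- isometries normalising the image -/
theorem Vs.nm {g : Au K (V K)} (hg : g ∈ orth (Q K)) (π : Perm (Fin 8))
    (e : ∀ σ x, g (R.ρ σ x) = R.ρ (MulAut.conjNormal π σ) (g x)) : ∃ s : ℤˣ, ∀ i, g (v i) = ((s : ℤ) : K) • v (π i) := by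
  have : ∀ i, ∃ l : K, g (v i) = l • v (π i) := fun i => by
    obtain ⟨b, hb⟩ := line R h.act h.sum (x := g (v i)) (i := π i) fun σ hσ => by
      have := e (MulAut.conjNormal π⁻¹ σ) (v i)
      rw [map_inv, MulAut.apply_inv_self, h.act] at this
      rw [← this]; simp [hσ]
    refine ⟨b / c, sub_eq_zero.1 (h.nd _ fun j => ?_)⟩
    have := h.c0
    rw [polar_sub_left, polar_smul_left, hb, h.pol, smul_eq_mul]
    split_ifs <;> field_simp <;> ring
  choose l hl using this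
  have p : ∀ i j, i ≠ j → l i * l j = 1 := fun i j n => by
    have := orth_polar ⟨g, hg⟩ (v i) (v j)
    simp only [hl, polar_smul_left, polar_smul_right, h.pol, n, π.injective.ne n, if_false, sub_zero, smul_eq_mul] at this
    exact mul_right_cancel₀ h.c0 (by linear_combination this)
  have q : ∀ i, l i = l 0 := fun i => by
    obtain ⟨k, a, b⟩ : ∃ k, i ≠ k ∧ 0 ≠ k := by revert i; decide
    linear_combination l 0 * p i k a - l i * p 0 k b
  have := p 0 1 (by decide)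
  rw [q 1, mul_self_eq_one_iff] at this
  rcases this with e | e
  exacts [⟨1, fun i => by simp [hl, q i, e]⟩, ⟨-1, fun i => by simp [hl, q i, e]⟩]

omit h in
theorem a8f : A8F.{u} := fun F _ _ H P h => ⟨fun e => by
  classical
  let R := h.rp.comp e.symm.toMonoidHom e.symm.injective
  obtain ⟨v, c, k⟩ := ex_v R fun W hW => h.core.absIrred.1 W (by
    rintro _ ⟨g, hg, rfl⟩ _ ⟨x, hx, rfl⟩
    have := hW (e ⟨g, hg⟩) x hx
    simpa [R, Rp.comp, h.rp_apply] using this)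
  have n : ∀ g ∈ H, ∃ (π : Perm (Fin 8)) (s : ℤˣ), ∀ i, glEquiv ι F g (v i) = ((s : ℤ) : F) • v (π i) := fun g hg => by
    haveI : (P.subgroupOf H).Normal := ⟨fun x hx y => h.core.normal _ y.2 _ hx⟩
    let f := (Subgroup.subgroupOfEquivOfLe h.core.le).trans e
    obtain ⟨π, hπ⟩ := (Agent.S2119.result 8 (by omega) (by omega)).2 (f.symm.trans ((MulAut.conjNormal ⟨g, hg⟩).trans f))
    refine ⟨π, k.nm (OmegaV_le (h.om hg)) π fun σ x => ?_⟩
    rw [hπ]
    change (glEquiv ι F g * glEquiv ι F (e.symm σ).1) x = (glEquiv ι F (e.symm (e _)).1 * glEquiv ι F g) x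
    rw [e.symm_apply_apply, ← map_mul, ← map_mul]
    exact congrArg (glEquiv ι F · x) (inv_mul_cancel_right _ g).symm
  have m : ∀ x, x ∈ D8.image (fun n => φ v (dig n)) ↔ ∃ a, Lt a ∧ φ v a = x := fun x =>
    mem_image.trans ⟨fun ⟨n, a, b⟩ => ⟨_, D8.lt a, b⟩, fun ⟨a, l, b⟩ => b ▸ k.dig l⟩
  have lx : Lt ![0, 1, -1, 0, 0, 0, 0, 0] := by unfold Lt; decide
  have ly : Lt ![0, 1, 1, 1, 1, 0, 0, 0] := by unfold Lt; decide
  obtain ⟨g, hg, eg⟩ := H12.O7.nm F H P h _ (-8 * c) (mul_ne_zero (neg_ne_zero.2 k.e8) k.c0) (card_image_le.trans D8c.le)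
    (fun x hx => by obtain ⟨a, l, rfl⟩ := (m x).1 hx; exact k.q l) (fun g hg x hx => by
      obtain ⟨a, l, rfl⟩ := (m x).1 hx
      obtain ⟨π, s, hs⟩ := n g hg
      have s2 : (s : ℤ) * s = 1 := by rw [← Units.val_mul, Int.units_mul_self]; rfl
      refine (m _).2 ⟨fun i => s * a (π⁻¹ i), ⟨?_, ?_⟩, ?_⟩
      · rw [← mul_sum, Equiv.sum_comp π⁻¹ a]; exact l.1.mul_left _
      · simp only [mul_mul_mul_comm (s : ℤ) _ s, s2, one_mul]
        rw [← mul_sum, Equiv.sum_comp π⁻¹ a, Equiv.sum_comp π⁻¹ fun i => a i * a i, mul_pow, l.2, sq (s : ℤ), s2, one_mul]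
      · rw [φ, φ, map_sum, ← Equiv.sum_comp π]
        simp [hs, smul_smul, mul_comm])
    (fun x hx y hy => by
      obtain ⟨a, l, rfl⟩ := (m x).1 hx
      obtain ⟨b, l', rfl⟩ := (m y).1 hy
      obtain ⟨d, ld, e⟩ := k.rf l l'
      exact (m _).2 ⟨d, ld, e.symm⟩) _ ((m _).2 ⟨_, lx, rfl⟩) _ ((m _).2 ⟨_, ly, rfl⟩)
  obtain ⟨π, s, hs⟩ := n g hg
  have z := hs 0
  have c0 := k.c0
  have e8 := k.e8
  rw [eg, orth_mul_apply, refl_apply_of_orth (by
    rw [H12.refl_apply, polar_sub_right, polar_smul_right, k.p2, polar_comm, k.p1]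
    simp [Fin.sum_univ_eight]), H12.refl_apply] at z
  have p : ∀ j, j ≠ 0 → j ≠ π 0 → (3 : F) - 4 * (![0, 1, 1, 1, 1, 0, 0, 0] j : ℤ) = (s : ℤ) := fun j a b => by
    have := congrArg (polar (Q F) (v j)) z
    rw [polar_sub_right, polar_smul_right, polar_smul_right, k.q ly, polar_comm _ (φ _ _), k.p1, k.p1, k.pol, k.pol,
      if_neg a, if_neg b] at this
    simp only [Fin.sum_univ_eight, smul_eq_mul] at this
    refine mul_right_cancel₀ c0 (Eq.trans ?_ (this.trans (by rw [sub_zero])))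
    simp; field_simp; ring
  obtain ⟨i, j, a, b, a', b', x, y⟩ : ∃ i j : Fin 8, i ≠ 0 ∧ i ≠ π 0 ∧ j ≠ 0 ∧ j ≠ π 0 ∧
      (![0, 1, 1, 1, 1, 0, 0, 0] i : ℤ) = 1 ∧ (![0, 1, 1, 1, 1, 0, 0, 0] j : ℤ) = 0 := by generalize π 0 = t; revert t; decide
  have := (p i a b).trans (p j a' b').symm
  rw [x, y] at this
  exact e8 (by push_cast at this; linear_combination -2 * this)⟩

end H3.O7
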