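import Cfsg.Agent.H10.RG.N1
import Cfsg.Agent.H23.RG3

/-! S3320, chunk `CA`: the case in which `T` is not a Sylow subgroup. -/

set_option autoImplicit false
set_option linter.unusedSectionVars false
set_option linter.unusedVariables false
set_option maxRecDepth 100000
set_option synthInstance.maxSize 4000
open Cfsg Subgroup H19 H0 H15 H10.RF H10.RG H23.RG
open scoped commutatorElement Pointwise
namespace H3.RG
local notation "cj" => H19.cj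
universe u
variable {G : Type u} [Group G] [Finite G] {A B D X : Subgroup G} {ρ ρ1 : G → ℕ} {v K v1 K1 : ℕ → G} {a b i j : ℕ} {g n p r w x y : G}
theorem cf_cf (a b : G) (f : ℕ → G) : cf a (cf b f) = cf (a * b) f := funext fun _ => cjcj _ _ _
theorem G0 (h : IK A ρ v K) (h1 : IK X ρ1 v1 K1) (hX : X = X0 v K ∨ X = X1 v K) (e1 : sT v K = sT v1 K1) :
    ∃ ρ' n, Iv A X v K ρ' (cf n v1) (cf n K1) ∧ ∀ g ∈ g6, ρ' (K g) = g := by
  have PX : sP v K ≤ N(X) := hX.elim (· ▸ h.PX0) (· ▸ h.PX1)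
  have XR : X ≤ sR v K := hX.elim (· ▸ h.X0R) (· ▸ h.X1R)
  have R1 : sR v1 K1 = sR v K := eq_of_le_of_card_eq (h1.AX0 ▸ sup_le XR (by
    rcases jt h _ (e1 ▸ h1.X0R.trans h1.RT) h1.sq0 h1.cX0.ge with e | e | e <;> rw [e]
    exacts [h.AP, h.X0R, h.X1R])) (h1.cR.trans h.cR.symm)
  have k1 : Iv A X v K ρ1 v1 K1 := ⟨h1, (eq_of_le_of_card_eq (h1.NR ▸ le_inf PX (R1 ▸ h.PR)) (h.cP.trans h1.cP.symm)).symm,
    ((jt h1 A (e1 ▸ h.AP) h.sq h.cA.ge).resolve_left (h.AX hX).symm).imp Eq.symm Eq.symm⟩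
  have vn := fun a => PX (h.AP (h.vm a))
  choose f f1 f2 using fun i => (show ∃ j < 16, ρ1 (v (64 * i)) = ug j from
    let ⟨a, ha, j, hj, e⟩ := h1.exR (R1.ge (h.AP (h.vm (64 * i)))); ⟨j, hj, by rw [e, h1.rel (ugk j (by omega)).1]⟩)
  have fx : ∀ a b, f (a ^^^ b) = f a ^^^ f b := fun a b => by
    have := congrArg ui ((f2 (a ^^^ b)).symm.trans (by rw [m64, h.vx, h1.mul _ (vn _) _ (vn _), f2, f2, (x1k _ (f1 a)).2.1 _ (f1 b)]))
    rwa [(ugk _ ((f1 _).trans (by decide))).2.2, (ugk _ (x10 ((f1 _).trans (by decide)) ((f1 _).trans (by decide)))).2.2] at this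
  have f0 : f 0 = 0 := by simpa using fx 0 0
  obtain ⟨B, o, eB⟩ := exB (F := fun u => f (u % 16) ^^^ (u &&& 16)) (fun a b => by
      simp only [show (a ^^^ b) % 16 = a % 16 ^^^ b % 16 from Nat.xor_mod_two_pow (n := 4), fx, Nat.and_xor_distrib_right, Nat.xor_assoc, Nat.xor_left_comm])
    (fun j hj => Nat.xor_lt_two_pow (n := 5) ((f1 _).trans (by decide)) (Nat.and_le_right.trans_lt (by decide))) fun u hu e => by
      have t := (by decide : ∀ u < 32, ∀ j < 16, j ^^^ (u &&& 16) = 0 → j = 0 ∧ u < 16) u hu _ (f1 _) e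
      have := (h1.rA (vn _)).1 ((f2 (u % 16)).trans (congrArg ug t.1))
      rw [← mul_one (v _), ← h.K1] at this
      have l : 64 * (u % 16) < 1024 := by omega
      rcases hX with q | q
      · have := (h.mX0 (i := 0) l (by decide)).1 (q ▸ this); omega
      · have := (h.mX1 (i := 0) l (by decide)).1 (q ▸ this); omega
  have c : ∀ j < 4, cl11 B j < 16 := fun j hj => by
    rw [← a5_pow (by omega), eB _ ((by decide : ∀ j < 4, 2 ^ j < 32) j hj), (by decide : ∀ j < 4, 2 ^ j &&& 16 = 0) j hj, Nat.xor_zero]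
    exact f1 _
  have nP : K1 B ∈ sP v K := k1.2.1 ▸ h1.KP o (inP_mP o c)
  have k2 := k1.cjg h nP
  obtain ⟨u, hu, e⟩ := k2.g2 h fun i hi => by
    have m := mul_mem (mul_mem (inv_mem (PX nP)) (vn (64 * i))) (PX nP)
    have oi := (ugk i (by omega)).1
    have of := (ugk _ ((f1 i).trans (by decide))).1
    have t := h1.mul _ (PX nP) _ m
    rw [← mul_assoc, mul_inv_cancel_left, h1.mul _ (vn _) _ (PX nP), h1.kr B o, f2] at t
    refine mm_cancel o (h1.okr _ m) oi (t.symm.trans ?_)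
    refine ok_ext (ok_mm of o) (ok_mm o oi) fun j hj => ?_
    rw [cl_mm _ _ hj, cl_mm _ _ hj]
    obtain hj | rfl := Nat.lt_succ_iff_lt_or_eq.1 hj
    · rw [(ugc i hi).2.1 j hj, a5_pow (by omega), ((ugc _ (f1 i)).2.2.2 _ (ok_cl o (by omega))).1 (c j hj)]
    · have t := (by decide : ∀ i < 16, 2 ^ 4 ^^^ i < 32 ∧ (2 ^ 4 ^^^ i) % 16 = i ∧ (2 ^ 4 ^^^ i) &&& 16 = 16) i hi
      rw [(ugc i hi).1, eB _ t.1, t.2.1, t.2.2, ← a5_pow (show 4 < 5 by decide), eB _ (by decide), show 2 ^ 4 % 16 = 0 from rfl, f0,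
        ((ugc _ (f1 i)).2.2.2 _ (by decide)).2 (by decide), Nat.xor_comm]
      rfl
  have k3 := k2.cjg h (k2.2.1 ▸ k2.1.RT.trans k2.1.TP (k2.1.KP (ugk u (by omega)).1 (x1k u hu).2.2.1))
  rw [cf_cf, cf_cf] at k3
  exact ⟨_, _, k3, e⟩
local notation "ZZ" => sZ v K
local notation "RR" => sR v K
local notation "TT" => sT v K
local notation "PP" => sP v K
local notation "X₀" => X0 v K
local notation "X₁" => X1 v K
/-- the swapping element -/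
structure Sw (A : Subgroup G) (ρ : G → ℕ) (v K : ℕ → G) (w : G) : Prop extends IK A ρ v K where
  wv : ∀ a, w * v a * w⁻¹ = xv v K a
  wk : ∀ i < 16, w * K (ug i) * w⁻¹ = v (64 * i)
  wP : w ∈ N(sP v K)
theorem xv64 (h : IK A ρ v K) (hi : i < 16) : xv v K (64 * i) = K (ug i) := by
  rw [xv, Nat.mul_mod_right, h.v0, one_mul, show 64 * i / 64 % 16 = i by omega]
theorem xv0 (h : IK A ρ v K) (ha : a < 64) : xv v K a = v a := by
  rw [xv, Nat.mod_eq_of_lt ha, Nat.div_eq_of_lt ha, show ug (0 % 16) = I5 from rfl, h.K1, mul_one]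
theorem exZ (h : IK A ρ v K) (hx : x ∈ ZZ) : ∃ a < 64, x = v a :=
  let ⟨a, ha, e⟩ := h.memV gdk.1.1 hx (ZA h hx); ⟨a, (sb_lt 6).1 ha, e⟩
theorem exSw (h : IK A ρ v K) (ns : ¬ Syl 2 TT ⊤) : ∃ w, Sw A ρ v K w := by
  obtain ⟨w, hw, w0⟩ := SetLike.not_le_iff_exists.1 (mt (h.sylT.syl_of_norm_le le_top) ns)
  have e := ((jt h _ (cj_le_of_mem_norm hw.2 h.AP) (sq_cj h.sq w) ((card_cj w A).trans h.cA).ge).resolve_left
    (mt mem_norm_iff_cj.2 w0)).resolve_right (ds jt h w)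
  obtain ⟨ρ', n, k, q⟩ := G0 h (e ▸ h.cjg w) (.inl rfl) (by rw [sT, sT, cj_PS, cj_of_mem_norm hw.2])
  rw [cf_cf, cf_cf] at k
  have t := congrFun (h.G3 k.1 (.inl rfl) q).2
  have a0 := k.2.2.resolve_right fun q => k.1.nX jt (q ▸ h)
  have nP := k.2.1
  have a1 : cj (n * w) A = X₀ := eq_of_le_of_card_eq (fun x hx => by
    obtain ⟨y, hy, rfl⟩ := mem_cj'.1 hx
    obtain ⟨a, -, rfl⟩ := h.vs y hy
    exact k.1.vm a) (by rw [card_cj, h.cA, h.cX0])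
  rw [X0, cj_PS] at a0
  rw [sP, cj_PS] at nP
  clear k q
  generalize n * w = w at *
  simp only [cf] at t
  have n2 : w * w ∈ N(A) := mem_norm_iff_cj.2 (by rw [cj_mul, a1, a0])
  obtain ⟨a, ha, i, hi, e2⟩ := h.exR (h.CZ.le ⟨n2, mem_cent.2 fun z hz => by
    obtain ⟨a, ha, rfl⟩ := exZ h hz
    exact (mem_cent1.1 (of_cjc (by rw [← cjcj, t, xv0 h ha, t, xv0 h ha]))).symm⟩)
  have o := (ugk i (by omega)).1
  have m : K (ug i) ∈ X₀ := h.KP o (x1k i hi).2.2.1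
  have t2 : ∀ a, K (ug i) * w * v a * (K (ug i) * w)⁻¹ = xv v K a := fun a => by
    rw [← cjcj, t]; exact cjc (cent_le_cent1 (t a ▸ a1.le (conj_mem_cj.2 (h.vm a))) (ab_sq h.sq0 m))
  refine ⟨K (ug i) * w, h, t2, fun j hj => ?_, mul_mem (le_normalizer (h.X0R.trans (h.RT.trans h.TP) m)) (mem_norm_iff_cj.2 nP)⟩
  rw [← xv64 h hj, ← t2, cjcj]
  refine cjc (cent_le_cent1 (h.vm _) (ab_sq h.sq ?_))
  have := conj_mem_of_norm (h.kn (ug i)) (mul_mem (a0.le (conj_mem_cj.2 m)) (h.vm a))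
  rw [inv_eq_of_mul_eq_one_right (h.Ksq o (ugc i hi).2.2.1), mul_assoc, mul_assoc _ (v a), ← e2] at this
  simpa only [mul_assoc, inv_mul_cancel_left] using this
theorem mz (ww : w * w = 1) (n : w ∈ N(B)) : x ∈ B ⊔ zpowers w ↔ ∃ b ∈ B, x = b ∨ x = b * w :=
  ⟨fun k => by
    obtain ⟨b, hb, c, hc, rfl⟩ := (mem_sup_of_norm (zpowers_le.2 n)).1 k
    exact ⟨b, hb, ((H17.GS.mem_zp ww).1 hc).imp (by rintro rfl; exact mul_one b) (by rintro rfl; rfl)⟩,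
  fun ⟨b, hb, e⟩ => e.elim (· ▸ mem_sup_left hb) (· ▸ mul_mem_sup hb (mem_zpowers w))⟩
theorem y8' (h : IK A ρ v K) (l2 : B ≤ PP) (c : 16384 ≤ #B) (q : ∀ a ∈ B, a * a ∈ RR) (k : RR ⊓ B ≤ X₁) :
    #(X₁ ⊓ C(B) : Subgroup G) ≤ 8 := by
  have n := l2.trans h.PR
  have c1 := card_sup_mul_inf n
  have c2 := card_le k
  exact y8 h h.PX1 h.X1R (fun x hx => (h.inZ (h.X1R hx.1)).1.2 ⟨hx.2, hx.1⟩) le_sup_left (sup_le (h.RT.trans h.TP) l2) (sq_sup n q) (by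
      rw [h.cR] at c1; rw [h.cX1] at c2; rw [h.cR]; nlinarith) (inf_le_left (b := C(B))) (fun y hy b hb => by
        obtain ⟨r, hr, b, hb', rfl⟩ := (mem_sup_of_norm n).1 hb
        rw [H10.RF.cmr, cm1.2 (cent_le_cent1 hb' hy.2), mul_one, mul_inv_cancel, mul_one]
        exact ZA h (cmZ h (h.X1R hy.1) hr)) (cents_sup (inf_le_right.trans (ZC h)) (inf_le_left.trans inf_le_right))
local notation "VV" => X1 v K ⊔ zpowers w
local notation "OO" => sR v K ⊔ zpowers w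
local notation "MM" => sP v K ⊔ zpowers w
local notation "SS" => sT v K ⊔ zpowers w
namespace Sw
variable (o : Sw A ρ v K w)
include o
theorem wa (hi : i < 16) : w * v (64 * i) * w⁻¹ = K (ug i) := (o.wv _).trans (xv64 o.toIK hi)
theorem wX : w ∈ C(X₁) := mem_cent.2 fun x hx => by
  obtain ⟨a, ha, rfl⟩ := o.mem_X1.1 hx
  have l : a / 64 < 16 := by omega
  refine (mem_cent1.1 (of_cjc ?_)).symm
  rw [cjmul, o.wv, o.wk _ l, xv, Nat.mod_eq_of_lt l, mul_assoc, o.Kv (ugk _ (by omega)).1, (x1k' l (by omega)).2.2 (by omega),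
    ← mul_assoc, ← o.vx, (by decide +kernel : ∀ a < 1024, a % 64 ^^^ 64 * (a / 64) = a) a ha]
theorem kZ (hr : r ∈ RR) (c : ⁅w, r⁆ ∈ ZZ) : r ∈ X₁ := by
  obtain ⟨a, ha, i, hi, rfl⟩ := o.exR hr
  have l : a / 64 < 16 := by omega
  have n := o.elN (a % 64) (ug (a / 64))
  have := ZA o.toIK c
  rw [commutatorElement_def, cjmul, o.wv, o.wk i hi, xv, Nat.mod_eq_of_lt l, ← o.eqv _ (mul_mem n (o.vN _)) _ (o.elN _ _), o.mul _ n _ (o.vN _),
    (o.rA (o.vN _)).2 (o.vm _), ← o.one, ← o.mul _ n _ (one_mem _), mul_one, o.rel (ugk _ (by omega)).1, o.rel (ugk _ (by omega)).1] at this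
  rw [o.mX1 ha hi, ← (ugk (a / 64) (by omega)).2.2, this, (ugk i (by omega)).2.2]
theorem cX : PP ⊓ C(X₁) ≤ X₁ := fun x hx => by_contra fun n => by
  have := (tx o.toIK).2.1.one x (o.CZ.le ⟨o.PN hx.1, cent_mono o.ZX1 hx.2⟩) n
  rw [inf_eq_left.2 (le_cent1_iff.2 hx.2), o.cX1, o.cZ] at this
  omega
theorem wm (hp : p ∈ PP) : ⁅w, p⁆ ∈ X₁ := o.cX (mem_inf.2 ⟨mul_mem (conj_mem_of_norm o.wP hp) (inv_mem hp),
  cms (cmN (norm_le_norm_cent _ (o.PX1 hp)) o.wX)⟩)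
theorem wm' (hp : p ∈ PP) : ⁅p, w⁆ ∈ X₁ := cms (o.wm hp)
theorem wA : cj w A = X₀ := eq_of_le_of_card_eq (fun x hx => by
    obtain ⟨y, hy, rfl⟩ := mem_cj'.1 hx
    obtain ⟨a, -, rfl⟩ := o.vs y hy
    rw [o.wv, xv]
    exact (o.mX0 (by omega) (Nat.mod_lt _ (by decide))).2 (by omega)) (by rw [card_cj, o.cA, o.cX0])
theorem wN (l : X₁ ≤ B) (l' : B ≤ PP) : w ∈ N(B) := mem_norm_of_cj_le fun x hx => by
  obtain ⟨y, hy, rfl⟩ := mem_cj'.1 hx
  exact cjcm w y ▸ mul_mem (l (o.wm (l' hy))) hy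
theorem RP : RR ≤ PP := o.RT.trans o.TP
theorem wR : w ∈ N(RR) := o.wN o.X1R o.RP
theorem wT : w ∈ N(TT) := o.wN (o.X1R.trans o.RT) o.TP
theorem w1 : w ∈ N(X₁) := cent_le_norm _ o.wX
theorem nA : w ∉ N(A) := fun k => o.AX (.inl rfl) (o.wA.symm.trans (cj_of_mem_norm k))
theorem w2 : w * w = 1 := by
  have c : w * w ∈ C(A) := mem_cent.2 fun x hx => by
    obtain ⟨a, ha, rfl⟩ := o.vs x hx
    refine (mem_cent1.1 (of_cjc ?_)).symm
    rw [← cjcj, o.wv, xv, cjmul, o.wv, xv0 o.toIK (Nat.mod_lt _ (by decide)), o.wk _ (Nat.mod_lt _ (by decide)), ← o.vx,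
      (by decide +kernel : ∀ a < 1024, a % 64 ^^^ 64 * (a / 64 % 16) = a) a ha]
  have k : PP ≤ C[w * w] := fun p hp => of_cjc (by
    rw [cjmul, cjcm p w, mul_assoc, ← mul_assoc w, ← mem_cent.1 o.wX _ (o.wm' hp), mul_assoc, ← mul_assoc, o.sq1 _ (o.wm' hp), one_mul])
  rcases (H17.GS.mem_zp (o.vv 1)).1 (o.ZT ⟨o.AP (o.CA c), le_cent1_iff.1 (o.TP.trans k)⟩) with e | e
  · exact e
  · exact absurd ((o.fixK (g := ee 2 1) (by decide +kernel) (by decide)).1 (e ▸ k (o.KP (by decide +kernel) (by decide +kernel))))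
      (by decide +kernel)
theorem wA' : cj w X₀ = A := by rw [← o.wA, cj_cj, o.w2, cj_one]
theorem c2 (l : B ≤ PP) (n : w ∈ N(B)) : #(B ⊔ zpowers w :) = #B * 2 := H17.GS.card_sup_zp o.w2 (fun k => o.nA (o.PN (l k))) n
theorem iP (l : B ≤ PP) (n : w ∈ N(B)) (hx : x ∈ B ⊔ zpowers w) (k : x ∈ N(A)) : x ∈ B := by
  obtain ⟨b, hb, rfl | rfl⟩ := (mz o.w2 n).1 hx
  exacts [hb, (o.nA ((mul_mem_cancel_left (o.PN (l hb))).1 k)).elim]
theorem nB (l : X₁ ≤ B) (n : PP ≤ N(B)) (n' : w ∈ N(B)) : MM ≤ N(B ⊔ zpowers w) := sup_le (fun p hp => mem_norm_of_cj_le (by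
  rw [cj_sup, cj_of_mem_norm (n hp), cj_zpowers, cjcm]
  exact sup_le le_sup_left (zpowers_le.2 (mul_mem_sup (l (o.wm' hp)) (mem_zpowers w))))) (le_sup_right.trans le_normalizer)
theorem sqV : ∀ x ∈ VV, x * x = 1 := fun x hx => by
  obtain ⟨b, hb, rfl | rfl⟩ := (mz o.w2 o.w1).1 hx
  · exact o.sq1 _ hb
  · rw [mul_assoc, ← mul_assoc w, ← mem_cent.1 o.wX b hb, mul_assoc, o.w2, mul_one, o.sq1 b hb]
theorem wV : w ∈ VV := mem_sup_right (mem_zpowers w)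
theorem swp (hn : n ∈ N(A) ∨ cj n A = X₀) (k : ∀ m ∈ zpowers w, m * n ∈ N(A) → m * n ∈ PP) : n ∈ MM := hn.elim
  (fun e => mem_sup_left (by simpa using k 1 (one_mem _) (by simpa))) fun e => (mul_mem_cancel_left (mem_sup_right (mem_zpowers w))).1
    (mem_sup_left (k w (mem_zpowers w) (mem_norm_iff_cj.2 (by rw [cj_mul, e, o.wA']))))
theorem jA (l : cj n A ≤ RR) : n ∈ N(A) ∨ cj n A = X₀ := (jt o.toIK _ (l.trans o.RT) (sq_cj o.sq n) ((card_cj n A).trans o.cA).ge).imp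
  mem_norm_iff_cj.2 (·.resolve_right (ds jt o.toIK n))
theorem nR : N(RR) = MM := le_antisymm (fun n hn => o.swp (o.jA (cj_le_of_mem_norm hn o.AP)) fun m hm k =>
  o.NR.le ⟨k, mul_mem (zpowers_le.2 o.wR hm) hn⟩) (sup_le o.PR (zpowers_le.2 o.wR))
theorem iV (hx : x ∈ OO) (x0 : x ∉ RR) (xx : x * x = 1) : x ∈ VV := by
  obtain ⟨r, hr, rfl | rfl⟩ := (mz o.w2 o.wR).1 hx
  · exact (x0 hr).elim
  refine mul_mem_sup (o.kZ hr ?_) (mem_zpowers w)
  rw [commutatorElement_def, inv_eq_of_mul_eq_one_right o.w2, eq_inv_of_mul_eq_one_right (show r * (w * r * w) = 1 by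
    simpa only [mul_assoc] using xx), ← _root_.mul_inv_rev]
  exact inv_mem (sqZ o.toIK hr)
theorem cV : #VV = 2048 := by rw [o.c2 (o.X1R.trans o.RP) o.w1, o.cX1]
theorem nO : N(OO) ≤ MM := fun n hn => by
  have l := cj_le_of_mem_norm hn (o.AP.trans le_sup_left)
  have e := sq_cj o.sq n
  refine o.swp (o.jA fun x hx => by_contra fun x0 => ?_) fun m hm k => o.NR.le ⟨k, mem_norm_of_cj_le fun y hy => o.iP o.RP o.wR
    (cj_le_of_mem_norm (mul_mem (le_normalizer (mem_sup_right hm)) hn) le_sup_left hy) (cj_le_of_mem k o.PN hy)⟩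
  have l2 : cj n A ≤ VV := fun y hy => (em (y ∈ RR)).elim (fun k => (mul_mem_cancel_right (o.iV (l hx) x0 (e x hx))).1
    (o.iV (l (mul_mem hy hx)) (fun q => x0 ((mul_mem_cancel_left k).1 q)) (e _ (mul_mem hy hx)))) fun k => o.iV (l hy) k (e y hy)
  have := card_le ((cents_mono (ab_sq o.sqV) le_rfl l2).trans (cj_cent n A ▸ cj_mono n o.CA))
  rw [o.cV, card_cj, o.cA] at this
  omega
theorem dc (n : w ∈ N(B)) (hx : x ∈ B ⊔ zpowers w) : ∃ b ∈ B, ∃ u ∈ zpowers w, x = b * u := (mem_sup_of_norm (zpowers_le.2 n)).1 hx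
theorem uV (hy : y ∈ zpowers w) : y ∈ C(VV) := ab_sq o.sqV (mem_sup_right hy)
theorem vc (hr : r ∈ RR) (hy : y ∈ zpowers w) (n : r * y ∉ VV) : r ∉ X₁ ∧ VV ⊓ C[r * y] ≤ X₁ ⊓ C[r] :=
  have r0 : r ∉ X₁ := fun k => n (mul_mem_sup k hy)
  ⟨r0, fun x hx => by
    have c := mem_cent1_symm.1 ((mul_mem_cancel_right (cent_le_cent1 hx.1 (o.uV hy))).1 (mem_cent1_symm.1 hx.2))
    obtain ⟨b, hb, rfl | rfl⟩ := (mz o.w2 o.w1).1 hx.1
    · exact ⟨hb, c⟩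
    refine (r0 (o.kZ hr ?_)).elim
    have := cm1.2 c
    rw [cml, mul_eq_one_iff_eq_inv, mul_inv_eq_iff_eq_mul, ← eq_inv_mul_iff_mul_eq, ← mul_assoc] at this
    exact this ▸ conj_mem_of_norm' (o.PZ (o.RP (o.X1R hb))) (inv_mem (cmZ o.toIK (o.X1R hb) hr))⟩
theorem ZO : ZZ ≤ C(OO) := cents_sup (ZC o.toIK) (cent_zpowers w ▸ le_cent1_iff.2 (cent_mono o.ZX1 o.wX))
theorem cO : #OO = 32768 := by rw [o.c2 o.RP o.wR, o.cR]
theorem i2 (n : w ∈ N(D)) (l : B ≤ D ⊔ zpowers w) : #B ≤ 2 * #(B ⊓ D : Subgroup G) := idx2 fun a ha b hb a0 b0 => by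
  obtain ⟨a, h1, rfl | rfl⟩ := (mz o.w2 n).1 (l ha)
  · exact (a0 h1).elim
  obtain ⟨b, h2, rfl | rfl⟩ := (mz o.w2 n).1 (l hb)
  · exact (b0 h2).elim
  simpa only [inv_eq_of_mul_eq_one_right o.w2, mul_assoc] using mul_mem h1 (conj_mem_of_norm n h2)
theorem tl : TL MM VV OO ZZ := by
  have t := (tx o.toIK).2.1
  have MV := o.nB le_rfl o.PX1 o.w1
  have OM : OO ≤ MM := sup_le_sup_right o.RP _
  have one : ∀ a ∈ OO, a ∉ VV → #(VV ⊓ C[a] : Subgroup G) ≤ 2 * #ZZ := fun a ha a0 => by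
    obtain ⟨r, hr, y, hy, rfl⟩ := o.dc o.wR ha
    exact (card_le (o.vc hr hy a0).2).trans (t.one r hr (o.vc hr hy a0).1)
  have hyp : ∀ m ∈ MM, #ZZ ≤ 2 * #(ZZ ⊓ C[m] : Subgroup G) → m ∈ OO := fun m hm c => by
    obtain ⟨p, hp, y, hy, rfl⟩ := o.dc o.wP hm
    exact mul_mem_sup (t.hyp p hp (c.trans (Nat.mul_le_mul_left _ (card_le fun z hz => ⟨hz.1, mem_cent1_symm.1 ((mul_mem_cancel_right
      (cent_le_cent1 (mem_sup_left (o.ZX1 hz.1)) (o.uV hy))).1 (mem_cent1_symm.1 hz.2))⟩)))) hy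
  refine ⟨o.sqV, o.ZX1.trans le_sup_left, sup_le_sup_right o.X1R _, OM, MV, o.nB o.X1R o.PR o.wR, fun a ha => ?_, by rw [o.cO, o.cV], o.ZO,
    fun a ha b hb a0 b0 c => ?_, one, hyp, fun B l1 l2 c q z => (wc1 (o.ZX1.trans le_sup_left) o.ZO one hyp l2 c z).resolve_right fun k => ?_,
    by rw [o.c2 le_rfl o.wP, o.cO, o.cP], fun D l n => ?_, fun a ha b hb a0 b0 => ?_⟩
  · obtain ⟨r, hr, rfl | rfl⟩ := (mz o.w2 o.wR).1 ha
    · exact mem_sup_left (t.sqO _ hr)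
    · have := mul_mem (conj_mem_of_norm (o.PX1 (o.RP hr)) (o.wm (o.RP hr))) (t.sqO r hr)
      rw [commutatorElement_def, inv_eq_of_mul_eq_one_right o.w2] at this
      exact mem_sup_left (by convert this using 1; group)
  · obtain ⟨r, hr, y, hy, rfl⟩ := o.dc o.wR ha
    obtain ⟨s, hs, z, hz, rfl⟩ := o.dc o.wR hb
    refine fun x hx => t.two r hr s hs (o.vc hr hy a0).1 (o.vc hs hz b0).1 (fun k => c ?_) ⟨(o.vc hr hy a0).2 hx.1, ((o.vc hs hz b0).2 ⟨hx.1.1, hx.2⟩).2⟩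
    convert mul_mem (mul_mem (mem_sup_left k) (conj_mem_of_norm' (MV (OM (mem_sup_left hs))) (mem_sup_right hy))) (mem_sup_right hz) using 1
    group
  · have vp : ∀ x ∈ VV, x ∈ PP → x ∈ X₁ := fun x hx k => o.iP (o.X1R.trans o.RP) o.w1 hx (o.PN k)
    have c1 := o.i2 o.wP l2
    have c2 := o.i2 o.w1 (inf_le_left (b := C(B)))
    have c3 := (card_le (show VV ⊓ C(B) ⊓ X₁ ≤ X₁ ⊓ C(B ⊓ PP) from fun x hx => ⟨hx.2, cent_mono inf_le_left hx.1.2⟩)).trans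
      (y8' o.toIK inf_le_right (by rw [c, o.cO] at c1; omega) (fun a ha => o.X1R (vp _ (q a ha.1) (mul_mem ha.2 ha.2)))
        fun x hx => vp x (k ⟨mem_sup_left hx.1, hx.2.1⟩) hx.2.2)
    rw [o.cZ] at z
    omega
  · have wD : zpowers w ≤ D := le_sup_right.trans l
    refine (o.simP (le_inf (le_sup_left.trans l) o.RP) ⟨inf_le_right, norms_inf (le_sup_left.trans n.norm) le_normalizer⟩).imp
      (fun e => le_antisymm (fun x hx => ?_) l) fun e => le_antisymm n.le (sup_le (e.ge.trans inf_le_left) wD)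
    obtain ⟨p, hp, y, hy, rfl⟩ := o.dc o.wP (n.le hx)
    exact mul_mem_sup (e.le ⟨(mul_mem_cancel_right (wD hy)).1 hx, hp⟩) hy
  · obtain ⟨r, hr, y, hy, rfl⟩ := o.dc o.wR ha
    obtain ⟨s, hs, z, hz, rfl⟩ := o.dc o.wR hb
    obtain ⟨p, hp, k⟩ := t.tr r hr s hs (o.vc hr hy a0).1 (o.vc hs hz b0).1
    refine ⟨p, mem_sup_left hp, ?_⟩
    convert mul_mem (mem_sup_left k) (conj_mem_of_norm (MV (OM (mem_sup_left hs))) (mul_mem
      (conj_mem_of_norm (MV (mem_sup_left hp)) (mem_sup_right hy)) (inv_mem (mem_sup_right hz)))) using 1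
    group
theorem wc (g : G) (l : cj g VV ≤ SS) : cj g VV = VV := by
  have e := sq_cj o.sqV g
  have c : #(cj g VV) = 2048 := (card_cj _ _).trans o.cV
  have c1 := o.i2 o.wT l
  have k : ∀ X, C(X) ≤ X → #X = 1024 → cj g VV ⊓ TT ≠ X := fun X h1 h2 q => by
    have := card_le ((cents_mono (ab_sq e) le_rfl (q.ge.trans inf_le_left)).trans h1)
    omega
  have q := ((jt o.toIK _ inf_le_right (fun x hx => e x hx.1) (by omega)).resolve_left (k A o.CA o.cA)).resolve_left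
    (k _ (o.wA ▸ cj_cent w A ▸ cj_mono w o.CA) o.cX0)
  refine eq_of_le_of_card_eq (fun x hx => ?_) (card_cj _ _)
  obtain ⟨t, ht, y, hy, rfl⟩ := o.dc o.wT (l hx)
  exact mul_mem_sup (o.cX ⟨o.TP ht, (mul_mem_cancel_right (zpowers_le.2 o.wX hy)).1
    (cent_mono (q.ge.trans inf_le_left) (ab_sq e hx))⟩) hy
theorem syl : Syl 2 SS ⊤ := by
  have l : SS ≤ MM := sup_le_sup_right o.TP _
  have c : #SS = 2 ^ 21 := by rw [o.c2 o.TP o.wT, o.cT]; rfl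
  refine (syl_mk l (PiN.of_card_pow Nat.prime_two c) ?_).syl_of_norm_le le_top fun n hn => o.nO (mem_norm_iff_cj.2 ?_)
  · have := card_mul_relIndex l
    rw [c, o.c2 le_rfl o.wP, o.cP] at this
    rw [show relIndex SS MM = 315 from Nat.eq_of_mul_eq_mul_left (Nat.two_pow_pos 21) this]; decide
  have e := o.wc n (cj_le_of_mem_norm hn.2 (sup_le_sup_right (o.X1R.trans o.RT) _))
  refine o.tl.wc _ (e ▸ cj_mono n o.tl.XO) ((cj_le_of_mem_norm hn.2 (sup_le_sup_right o.RT _)).trans l) (card_cj _ _) (fun a ha => ?_)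
    (card_cj n ZZ ▸ card_le (le_inf (e ▸ cj_mono n o.tl.ZX) (cj_cent n OO ▸ cj_mono n o.ZO)))
  obtain ⟨b, hb, rfl⟩ := mem_cj'.1 ha
  exact cjmul n b b ▸ e.le (conj_mem_cj.2 (o.tl.sqO b hb))
end Sw
theorem ca : CA.{u} := fun h ns => (exSw h ns).imp fun _ o =>
  ⟨h, o.w2, o.wX, fun _ => o.wa, fun _ => o.wm, o.nR, o.nO, o.tl, o.syl, o.wc⟩
end H3.RG
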