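import Cfsg.Agent.H3.S6a
import Cfsg.Agent.H24.S6a
import Cfsg.Agent.H4.SPb

/-! The character of a symplectic representation of degree six of `U₃(3)`. -/

set_option autoImplicit false
set_option linter.unusedSectionVars false
set_option synthInstance.maxSize 2000

namespace H3.S6
open Matrix Cfsg Cfsg.Geo H27.Asch Module H6.SP H24.S6
open H11.SP hiding up dg

/-- the number of non-trivial eigenvalues -/
def cn {n : ℕ} (w : I6 → ZMod n) : ℕ := (Finset.univ.filter fun i => w i ≠ 0).card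
def c1 {n : ℕ} (k : ℕ) (e : Fin 3 → ZMod n) : ℕ := cn fun i => (k : ZMod n) * ex e i
def c2 {n : ℕ} (k l : ℕ) (e f : Fin 3 → ZMod n) : ℕ := cn fun i => (k : ZMod n) * ex e i + (l : ZMod n) * ex f i

section
variable {K : Type*} [Field K] {n : ℕ} [NeZero n] {ψ : AddChar (ZMod n) K} {x y B : G6 K} {e f : Fin 3 → ZMod n}

theorem spec2 [IsAlgClosed K] {ζ : K} (hζ : IsPrimitiveRoot ζ n) (h0 : (n : K) ≠ 0) (hx : x ∈ S6 K) (hy : y ∈ S6 K)
    (c : x * y = y * x) (xn : x ^ n = 1) (yn : y ^ n = 1) : ∃ (B : G6 K) (e f : Fin 3 → ZMod n),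
      Sc (AddChar.zmodChar n hζ.pow_eq_one) x B e ∧ Sc (AddChar.zmodChar n hζ.pow_eq_one) y B f := by
  obtain ⟨B, -, hB⟩ := dg' {x, y} (by rintro _ (rfl | rfl) <;> assumption) (by rintro _ (rfl | rfl) _ (rfl | rfl) <;> simp [c])
    (by rintro _ (rfl | rfl); exacts [⟨n, h0, xn⟩, ⟨n, h0, yn⟩])
  have k : ∀ x : G6 K, x ^ n = 1 → (∃ d, (B⁻¹ * x * B).val = dg d) → ∃ e, Sc (AddChar.zmodChar n hζ.pow_eq_one) x B e := by
    rintro x xn ⟨d, hd⟩
    have pw : ∀ k : ℕ, (x ^ k).val = B.val * dg d ^ k * (B⁻¹).val := fun k => by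
      rw [← hd, ← Units.val_pow_eq_pow_val, ← Units.val_mul, ← Units.val_mul, ← conj_pow]; simp [mul_assoc]
    have dn : ∀ i, (d i : K) ^ n = 1 := fun i => by
      have := pw n
      rw [xn, eq_comm, Units.mul_inv_eq_iff_eq_mul, Units.val_one, one_mul] at this
      replace this := (Units.mul_right_inj B).1 (this.trans (mul_one _).symm)
      rw [dg, diagonal_pow, ← diagonal_one] at this
      exact congrFun (diagonal_injective this) (.inl i)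
    choose e _ he using fun i => hζ.eq_pow_of_pow_eq_one (dn i)
    refine ⟨fun i => e i, AddChar.zmodChar_primitive_of_primitive_root n hζ, fun k => ?_⟩
    rw [pw, dg, diagonal_pow]
    congr 3
    ext (i | i) <;> simp [ex, ← nsmul_eq_mul, AddChar.map_nsmul_eq_pow, AddChar.map_neg_eq_inv, AddChar.zmodChar_apply', he]
  obtain ⟨e, he⟩ := k x xn (hB x (by simp))
  obtain ⟨f, hf⟩ := k y yn (hB y (by simp))
  exact ⟨B, e, f, he, hf⟩

theorem rk_dg (h : ψ.IsPrimitive) {w : I6 → ZMod n} (e : x.val = B.val * diagonal (fun i => ψ (w i)) * (B⁻¹).val) :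
    rk x = cn w := by
  classical
  have : (B⁻¹ * x * B).val = diagonal fun i => ψ (w i) := by
    rw [Units.val_mul, Units.val_mul, e]; simp only [Matrix.mul_assoc, Units.inv_mul_cancel_left, Units.inv_mul, Matrix.mul_one]
  rw [← H4.SP.rk_conj B⁻¹, inv_inv, rk, this, ← diagonal_one, diagonal_sub, rank_diagonal, Fintype.card_subtype, cn]
  congr! 2 with i
  rw [sub_ne_zero, ne_eq, h.zmod_char_eq_one_iff n]

theorem rk1 (h : Sc ψ x B e) (k : ℕ) : rk (x ^ k) = c1 k e := rk_dg h.pr (h.pw k)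
theorem rk2 (h : Sc ψ x B e) (h' : Sc ψ y B f) (k l : ℕ) : rk (x ^ k * y ^ l) = c2 k l e f :=
  rk_dg (B := B) h.pr (by
    rw [Units.val_mul, h.pw, h'.pw]
    simp only [Matrix.mul_assoc, Units.inv_mul_cancel_left]
    rw [← Matrix.mul_assoc (diagonal _), diagonal_mul_diagonal]
    simp only [AddChar.map_add_eq_mul])

/-- the spectrum of `x` is `M` -/
def Val (n : ℕ) [NeZero n] (M : Multiset (ZMod n)) (x : G6 K) : Prop :=
  x ∈ S6 K ∧ x ^ n = 1 ∧ ∀ (ψ : AddChar (ZMod n) K) B e, Sc ψ x B e → Finset.univ.val.map (ex e) = M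

theorem Val.eq [IsAlgClosed K] (h0 : (n : K) ≠ 0) {M : Multiset (ZMod n)} (h : Val n M x) (h' : Val n M y) (k : ℕ) :
    T (x ^ k) = T (y ^ k) := by
  have : NeZero (n : K) := ⟨h0⟩
  obtain ⟨ζ, hζ⟩ := HasEnoughRootsOfUnity.exists_primitiveRoot K n
  obtain ⟨B, e, -, s, -⟩ := spec2 hζ h0 h.1 h.1 rfl h.2.1 h.2.1
  obtain ⟨C, f, -, t, -⟩ := spec2 hζ h0 h'.1 h'.1 rfl h'.2.1 h'.2.1
  have a := congrArg (fun m => (m.map fun a => AddChar.zmodChar n hζ.pow_eq_one (k * a)).sum) ((h.2.2 _ _ _ s).trans (h'.2.2 _ _ _ t).symm)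
  simp only [Multiset.map_map] at a
  rw [s.T, t.T]; exact a

theorem rk_cj (h : IsConj x y) : rk x = rk y := by
  obtain ⟨c, rfl⟩ := isConj_iff.1 h
  exact (H4.SP.rk_conj c x).symm
theorem rk_one : rk (1 : G6 K) = 0 := by simp [rk]
end

theorem v3 {α : Type*} {p : (Fin 3 → α) → Prop} (h : ∀ a b c, p ![a, b, c]) (e : Fin 3 → α) : p e := by
  rw [show e = ![e 0, e 1, e 2] by ext i; fin_cases i <;> rfl]; exact h _ _ _

theorem d4 : ∀ f : Fin 3 → ZMod 4, c1 2 f = 0 → ∀ e : Fin 3 → ZMod 4, c1 1 e < 6 →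
    c1 2 e ≠ 0 → c1 2 e = c1 1 f →
    c1 2 e = c2 2 1 e f →
    c1 2 e = 4 ∧ c2 3 1 e f = 6 := by
  refine v3 fun a b c h => v3 ?_
  revert a b c; decide +kernel
theorem d3 : ∀ f : Fin 3 → ZMod 3, c1 1 f ≠ 0 → ∀ e : Fin 3 → ZMod 3,
    c1 1 e = c2 1 1 e f →
    c1 1 e = c2 1 2 e f →
    c1 1 e = 4 ∧ c1 1 f = 6 := by
  refine v3 fun a b c h => v3 ?_
  revert a b c; decide +kernel
theorem da : ∀ e : Fin 3 → ZMod 3, c1 1 e = 4 → Finset.univ.val.map (ex e) = {0, 0, 1, 1, 2, 2} :=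
  v3 (by decide +kernel)
theorem dy : ∀ e : Fin 3 → ZMod 4, c1 1 e < 6 → c1 2 e = 4 →
    Finset.univ.val.map (ex e) = {0, 0, 1, 1, 3, 3} := v3 (by decide +kernel)
theorem de : ∀ e : Fin 3 → ZMod 8, c1 4 e = 4 → c1 2 e = 6 →
    (∀ i, ∃ j, ex e j = (5 : ℕ) * ex e i) → Finset.univ.val.map (ex e) = {1, 2, 3, 5, 6, 7} := v3 (by decide +kernel)
theorem dz : ∀ e : Fin 3 → ZMod 7, (∃ i, ex e i ≠ 0) → (∀ i, ∃ j, ex e j = (2 : ℕ) * ex e i) →
    Finset.univ.val.map (ex e) = {1, 2, 3, 4, 5, 6} := v3 (by decide +kernel)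
theorem dw : ∀ e : Fin 3 → ZMod 12, c1 6 e = 4 → c1 4 e = 6 →
    c1 9 e = 6 → (∀ i, ∃ j, ex e j = (5 : ℕ) * ex e i) →
    Finset.univ.val.map (ex e) = {1, 2, 5, 7, 10, 11} := v3 (by decide +kernel)

section
variable {K : Type*} [Field K] (h2 : (2 : K) ≠ 0) (h3 : (3 : K) ≠ 0) {e y c a z g : G6 K} (h : Cov e y c a z g)
include h2 h

theorem Cov.ry : rk y < 6 := by
  by_contra! H
  have u : IsUnit (y.val - 1) := by
    rw [← mulVec_surjective_iff_isUnit, ← coe_mulVecLin, ← LinearMap.range_eq_top]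
    exact Submodule.eq_top_of_finrank_eq (le_antisymm (Submodule.finrank_le _) (by simpa [rk, rank] using H))
  obtain ⟨k, k1, k2⟩ := h.q8
  have y4 : y.val ^ 4 = 1 := by rw [← Units.val_pow_eq_pow_val, show 4 = 2 * 2 from rfl, pow_mul, h.y2, ← pow_mul, h.e8]; rfl
  rw [← h.y2] at k1
  have e1 : y.val * (1 + y.val ^ 2) = -(1 + y.val ^ 2) := eq_neg_of_add_eq_zero_left (u.mul_left_cancel (by
    rw [mul_zero, ← sub_self (1 : M6 K)]; nth_rw 4 [← y4]; noncomm_ring))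
  have kc : k.val * (1 + y.val ^ 2) = (1 + y.val ^ 2) * k.val := by
    rw [mul_add, add_mul, mul_one, one_mul, ← Units.val_pow_eq_pow_val, ← Units.val_mul, k1, Units.val_mul]
  have k3 := congrArg (fun m : G6 K => m.val * (1 + y.val ^ 2)) k2
  have e2 : y.val * k.val * y.val * k.val * (1 + y.val ^ 2) = (1 + y.val ^ 2) * (k * k).val := by
    rw [mul_assoc _ k.val, kc, ← mul_assoc, mul_assoc _ y.val, e1, mul_neg, mul_assoc _ k.val, kc, ← mul_assoc, e1]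
    simp only [neg_mul, neg_neg, mul_assoc, Units.val_mul]
  have e3 : k.val * k.val * y.val * (1 + y.val ^ 2) = -((1 + y.val ^ 2) * (k * k).val) := by
    rw [mul_assoc, e1, mul_neg, mul_assoc, kc, ← mul_assoc, kc, mul_assoc]; rfl
  simp only [Units.val_mul] at k3
  rw [e2, e3, eq_neg_iff_add_eq_zero, ← two_smul K, smul_eq_zero, or_iff_right h2, Units.mul_left_eq_zero] at k3
  have s : e ^ 4 = -1 := h.y2 ▸ Units.ext (eq_neg_of_add_eq_zero_right k3)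
  have c : ∀ t, IsConj (e ^ 4) t → t = -1 := fun t ht => by
    obtain ⟨c, rfl⟩ := isConj_iff.1 ht
    simp [s]
  refine h.e1 (h.y2 ▸ mul_right_cancel (b := y * e ^ 2) ?_)
  rw [one_mul, ← mul_assoc, ← pow_succ, c _ h.v1, c _ h.v2]

include h3 in
theorem Cov.val [IsAlgClosed K] (se : e ∈ S6 K) (sy : y ∈ S6 K) (sc : c ∈ S6 K) (sa : a ∈ S6 K) (sz : z ∈ S6 K) (sg : g ∈ S6 K) :
    Val 8 {1, 2, 3, 5, 6, 7} e ∧ Val 4 {0, 0, 1, 1, 3, 3} y ∧ Val 3 {0, 0, 1, 1, 2, 2} a ∧ Val 7 {1, 2, 3, 4, 5, 6} z ∧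
      Val 12 {1, 2, 5, 7, 10, 11} g := by
  have n4 : ((4 : ℕ) : K) ≠ 0 := by rw [show 4 = 2 * 2 from rfl, Nat.cast_mul]; exact mul_ne_zero h2 h2
  have := NeZero.mk n4
  have : NeZero ((3 : ℕ) : K) := ⟨h3⟩
  obtain ⟨ζ, hζ⟩ := HasEnoughRootsOfUnity.exists_primitiveRoot K 4
  obtain ⟨ω, hω⟩ := HasEnoughRootsOfUnity.exists_primitiveRoot K 3
  have y4 : y ^ 4 = 1 := by rw [show 4 = 2 * 2 from rfl, pow_mul, h.y2, ← pow_mul, h.e8]
  have c0 : Commute y (e ^ 2) := h.ye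
  have t2 : (y * e ^ 2) ^ 2 = 1 := by rw [c0.mul_pow, h.y2, ← pow_mul, ← pow_add, h.e8]
  obtain ⟨B, u, v, s, t⟩ := spec2 hζ n4 sy (mul_mem sy (pow_mem se 2)) ((Commute.refl y).mul_right c0) y4
    (by rw [show 4 = 2 * 2 from rfl, pow_mul, t2, one_pow])
  have ry := h.ry h2
  have r4 := d4 v (by rw [← rk1 t, t2, rk_one]) u (by rwa [← rk1 s, pow_one]) (by rw [← rk1 s, h.y2]; exact fun e => h.e1 (H4.SP.rk_zero e))
    (by rw [← rk1 s, ← rk1 t, h.y2, pow_one, rk_cj h.v1]) (by rw [← rk1 s, ← rk2 s t, pow_one, ← mul_assoc, ← pow_succ, ← rk_cj h.v2, h.y2])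
  rw [← rk1 s, ← rk2 s t, pow_one, ← mul_assoc, ← pow_succ, y4, one_mul] at r4
  obtain ⟨C, u', v', s', t'⟩ := spec2 hω h3 sa sc h.ac h.a3 h.c3
  have r3 := d3 v' (by rw [← rk1 t', pow_one]; exact fun e => h.c1 (H4.SP.rk_zero e)) u'
    (by rw [← rk1 s', ← rk2 s' t', pow_one, pow_one, rk_cj h.a1]) (by rw [← rk1 s', ← rk2 s' t', pow_one, rk_cj h.a2])
  rw [← rk1 s', ← rk1 t', pow_one, pow_one] at r3
  refine ⟨⟨se, h.e8, fun ψ B f s => de f ?_ ?_ (s.cj h.e5)⟩, ⟨sy, y4, fun ψ B f s => dy f ?_ ?_⟩, ⟨sa, h.a3, fun ψ B f s => da f ?_⟩,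
    ⟨sz, h.z7, fun ψ B f s => dz f (s.ne h.z1) (s.cj h.z2)⟩, ⟨sg, ?_, fun ψ B f s => dw f ?_ ?_ ?_ (s.cj h.g5)⟩⟩
  · rw [← rk1 s, ← h.y2, r4.1]
  · rw [← rk1 s, r4.2]
  · rwa [← rk1 s, pow_one]
  · rw [← rk1 s, r4.1]
  · rw [← rk1 s, pow_one, r3.1]
  · rw [show 12 = 4 * 3 from rfl, pow_mul, h.g4, h.c3]
  · rw [← rk1 s, h.g6, ← h.y2, r4.1]
  · rw [← rk1 s, h.g4, r3.2]
  · rw [← rk1 s, h.g9, r4.2]
end

/-- two faithful symplectic representations of degree six of `U₃(3)` have the same character -/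
theorem tr_eq {F : Type*} [Field F] (h2 : (2 : F) ≠ 0) (h3 : (3 : F) ≠ 0) (ρ ρ' : Γ0 →* G6 F) (i : Function.Injective ρ)
    (i' : Function.Injective ρ') (s : ∀ x, ρ x ∈ S6 F) (s' : ∀ x, ρ' x ∈ S6 F) (x : Γ0) : T (ρ x) = T (ρ' x) := by
  let σ := algebraMap F (AlgebraicClosure F)
  have a2 : (2 : AlgebraicClosure F) ≠ 0 := by rw [← map_ofNat σ]; exact (map_ne_zero σ).2 h2
  have a3 : (3 : AlgebraicClosure F) ≠ 0 := by rw [← map_ofNat σ]; exact (map_ne_zero σ).2 h3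
  have k : ∀ (ρ : Γ0 →* G6 F) (_ : Function.Injective ρ) (s : ∀ x, ρ x ∈ S6 F), _ := fun ρ i s =>
    (cov.map ((GeneralLinearGroup.map σ).comp ρ) ((gm_inj σ).comp i)).val a2 a3 ((gm_mem σ).2 (s _)) ((gm_mem σ).2 (s _))
      ((gm_mem σ).2 (s _)) ((gm_mem σ).2 (s _)) ((gm_mem σ).2 (s _)) ((gm_mem σ).2 (s _))
  obtain ⟨v1, v2, v3, v4, v5⟩ := k ρ i s
  obtain ⟨w1, w2, w3, w4, w5⟩ := k ρ' i' s'
  obtain ⟨l, hl, n, c⟩ := cover x
  rw [← T_conj (ρ.map_isConj c), ← T_conj (ρ'.map_isConj c)]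
  apply σ.injective
  rw [← gm_T, ← gm_T, map_pow, map_pow, map_pow, map_pow]
  have nz : ∀ a b : ℕ, ((2 ^ a * 3 ^ b : ℕ) : AlgebraicClosure F) ≠ 0 := fun a b => by
    push_cast; exact mul_ne_zero (pow_ne_zero _ a2) (pow_ne_zero _ a3)
  simp only [List.mem_cons, List.not_mem_nil, or_false] at hl
  rcases hl with rfl | rfl | rfl | rfl | rfl
  · exact v1.eq (nz 3 0) w1 n
  · exact v2.eq (nz 2 0) w2 n
  · exact v3.eq (nz 0 1) w3 n
  · by_cases h7 : ((7 : ℕ) : AlgebraicClosure F) = 0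
    · have := Fact.mk (by norm_num : Nat.Prime 7)
      have := (CharP.charP_iff_prime_eq_zero this.1).2 h7
      apply frobenius_inj _ 7
      rw [frobenius_def, frobenius_def, ← H4.SP.T_pow, ← H4.SP.T_pow, pow_right_comm, pow_right_comm _ n]
      exact congrArg (fun x => T (x ^ n)) (v4.2.1.trans w4.2.1.symm)
    · exact v4.eq h7 w4 n
  · exact v5.eq (nz 2 1) w5 n

end H3.S6
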