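import Cfsg.Agent.H3.S6b
import Cfsg.Agent.H3.S6c
import Cfsg.Agent.H6.SP2
import Cfsg.Agent.H11.Congr
import Cfsg.Agent.S2089

/-! S5806: the piece `U3b` (the overgroup `2.J₂` of `U₃(3)`). -/

set_option autoImplicit false
set_option linter.unusedSectionVars false
set_option linter.unnecessarySeqFocus false

namespace H3.S6
open Matrix Cfsg Cfsg.Geo H27.Asch Module H6.SP H16
open H11.SP hiding up dg
open H4.SP (tv tv_mv)
universe u

/-- parameters splitting the icosians -/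
structure Pr (F : Type*) [Field F] where
  t : F
  a : F
  b : F
  ht : t * t = t + 1
  hab : a * a + b * b = -1
  h2 : (2 : F) ≠ 0

section
variable {F : Type u} [Field F]

theorem tr1 {v w : V6 F} (h : fm v w ≠ 0) : ∃ g ∈ S6 F, g.val *ᵥ v = w :=
  ⟨tv (w - v) (fm v w)⁻¹, mem_S6.2 fun x y => by
    simp only [tv_mv, fm_add_l, fm_add_r, fm_smul_l, fm_smul_r, fm_self, fm_swap (w - v) y]; ring, by
    rw [tv_mv, fm_sub_r, fm_self, sub_zero, inv_mul_cancel₀ h, one_smul, add_sub_cancel]⟩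
theorem tr2 {v w : V6 F} (hv : v ≠ 0) (hw : w ≠ 0) : ∃ g ∈ S6 F, g.val *ᵥ v = w := by
  obtain ⟨x, a, b⟩ : ∃ x, fm v x ≠ 0 ∧ fm x w ≠ 0 := by
    obtain ⟨x, hx⟩ := not_forall.1 (mt fm_nd hv)
    obtain ⟨y, hy⟩ := not_forall.1 (mt fm_nd' hw)
    by_cases c : fm x w = 0
    · by_cases d : fm v y = 0
      exacts [⟨x + y, by simpa [d], by simpa [c]⟩, ⟨y, d, hy⟩]
    · exact ⟨x, hx, c⟩
  obtain ⟨g, hg, rfl⟩ := tr1 a
  obtain ⟨k, hk, rfl⟩ := tr1 b
  exact ⟨k * g, mul_mem hk hg, mul_mv ..⟩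

def f3 (w : Fin 3 → Fin 2 → F) : V6 F := fun s => w (sd s).1 (sd s).2
theorem kr_mv (A : M32 F) (w : Fin 3 → Fin 2 → F) : kr A *ᵥ f3 w = f3 fun i => ∑ j, A i j *ᵥ w j := by
  ext s
  simp only [kr, mulVec, dotProduct, Fintype.sum_sum_type, f3, Fin.sum_univ_two, Finset.sum_add_distrib, Finset.sum_apply, of_apply]
  rfl
theorem f3_smul (c : F) (a b d : Fin 2 → F) : f3 ![c • a, c • b, c • d] = c • f3 ![a, b, d] := by
  ext s
  simp only [f3, Pi.smul_apply]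
  generalize (sd s).1 = i
  fin_cases i <;> rfl
theorem ad_kr (A : M32 F) : ad (kr A) = kr (Matrix.of fun i j => adjugate (A j i)) := by
  change -J _ F * (kr A)ᵀ * J _ F = _
  ext (i | i) (j | j) <;> simp [J, kr, sd, mul_apply, Fintype.sum_sum_type, one_apply, adjugate_fin_two]

namespace Pr
variable (D : Pr F)
def ev (x : Zt) : F := x.a + x.b * D.t
theorem ev_add (x y : Zt) : D.ev (x.add y) = D.ev x + D.ev y := by simp [ev, Zt.add]; ring
theorem ev_sub (x y : Zt) : D.ev (x.sub y) = D.ev x - D.ev y := by simp [ev, Zt.sub, Int.sub]; ring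
theorem ev_neg (x : Zt) : D.ev x.neg = -D.ev x := by
  change ((-x.a : ℤ) : F) + ((-x.b : ℤ) : F) * _ = _
  simp [ev]; ring
theorem ev_sc (n : ℤ) (x : Zt) : D.ev (x.sc n) = n * D.ev x := by simp [ev, Zt.sc]; ring
theorem ev_mul (x y : Zt) : D.ev (x.mul y) = D.ev x * D.ev y := by
  simp [ev, Zt.mul]; linear_combination (-x.b * y.b : F) * D.ht
def φ (q : Qt) : M2 F := !![D.ev q.r + D.a * D.ev q.i - D.b * D.ev q.k, D.b * D.ev q.i + D.ev q.j + D.a * D.ev q.k;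
  D.b * D.ev q.i - D.ev q.j + D.a * D.ev q.k, D.ev q.r - D.a * D.ev q.i + D.b * D.ev q.k]
theorem φ_add (x y : Qt) : D.φ (x.add y) = D.φ x + D.φ y := by
  ext i j; fin_cases i <;> fin_cases j <;> simp [φ, Qt.add, ev_add] <;> ring
theorem φ_sc (n : ℤ) (x : Qt) : D.φ (x.sc n) = (n : F) • D.φ x := by
  ext i j; fin_cases i <;> fin_cases j <;> simp [φ, Qt.sc, ev_sc] <;> ring
theorem φ_cj (x : Qt) : D.φ x.cj = adjugate (D.φ x) := by
  ext i j; fin_cases i <;> fin_cases j <;> simp [φ, Qt.cj, ev_neg] <;> ring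
theorem φ_mul (x y : Qt) : D.φ (x.mul y) = D.φ x * D.φ y := by
  have := D.hab
  ext i j; fin_cases i <;> fin_cases j <;> simp [φ, Qt.mul, ev_add, ev_sub, ev_mul] <;> grind
theorem φ_q0 : D.φ q0 = 0 := by ext i j; fin_cases i <;> fin_cases j <;> simp [φ, q0, ev]
theorem φ_q1 : D.φ q1 = 1 := by ext i j; fin_cases i <;> fin_cases j <;> simp [φ, q1, ev]

def vec (v : V3) (u : Fin 2 → F) : V6 F := f3 ![D.φ v.x *ᵥ u, D.φ v.y *ᵥ u, D.φ v.z *ᵥ u]
def mat (m : M3) : M6 F := kr !![D.φ m.a.x, D.φ m.a.y, D.φ m.a.z; D.φ m.b.x, D.φ m.b.y, D.φ m.b.z; D.φ m.c.x, D.φ m.c.y, D.φ m.c.z]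
theorem mat_vec (m : M3) (v : V3) (u : Fin 2 → F) : D.mat m *ᵥ D.vec v u = D.vec (m.ap v) u := by
  refine (kr_mv _ _).trans (congrArg f3 (funext fun i => ?_))
  simp only [Fin.sum_univ_three, M3.ap, V3.dot, φ_add, φ_mul, add_mulVec, ← mulVec_mulVec]
  fin_cases i <;> rfl
theorem vec_rm (v : V3) (q : Qt) (u : Fin 2 → F) : D.vec (v.rm q) u = D.vec v (D.φ q *ᵥ u) := by
  simp only [vec, V3.rm, φ_mul, mulVec_mulVec]
theorem vec_sc (n : ℤ) (v : V3) (u : Fin 2 → F) : D.vec (v.sc n) u = (n : F) • D.vec v u := by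
  simp only [vec, V3.sc, φ_sc, smul_mulVec, f3_smul]
theorem vec_smul (c : F) (v : V3) (u : Fin 2 → F) : D.vec v (c • u) = c • D.vec v u := by
  simp only [vec, mulVec_smul, f3_smul]
theorem ext_bs {m n : M6 F} (h : ∀ i u, m *ᵥ D.vec (bs i) u = n *ᵥ D.vec (bs i) u) : m = n := mext fun x => by
  have : x = ∑ i, D.vec (bs i) ![x (.inl i), x (.inr i)] := by
    ext (s | s) <;> fin_cases s <;> simp [Fin.sum_univ_three, vec, f3, bs, sd, φ_q0, φ_q1]
  rw [this, mulVec_sum, mulVec_sum, Finset.sum_congr rfl fun i _ => h i _]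
theorem ad_mat (m : M3) : ad (D.mat m) = D.mat m.st := by
  rw [mat, ad_kr, mat]
  congr 1
  ext i j : 2; fin_cases i <;> fin_cases j <;> simp [M3.st, φ_cj]
include D in
theorem h4 : (4 : F) ≠ 0 := by rw [show (4 : F) = 2 * 2 by norm_num]; exact mul_ne_zero D.h2 D.h2

theorem un {k : ℕ} (h : k < 5) : (4 : F)⁻¹ • D.mat (gm k).st * (4 : F)⁻¹ • D.mat (gm k) = 1 := D.ext_bs fun i u => by
  rw [← mulVec_mulVec, smul_mulVec, smul_mulVec, mulVec_smul, mat_vec, mat_vec, V3.d_eq (ckU k h i), vec_sc, one_mulVec,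
    smul_smul, smul_smul]
  rw [show ((4 : F)⁻¹ * 4⁻¹ * (16 : ℤ) : F) = 1 by have := D.h4; field_simp; norm_num, one_smul]
/-- the generators -/
noncomputable def δ (k : ℕ) : G6 F :=
  if h : k < 5 then ⟨(4 : F)⁻¹ • D.mat (gm k), (4 : F)⁻¹ • D.mat (gm k).st, mul_eq_one_comm.1 (D.un h), D.un h⟩ else 1
theorem δ_sp (k : ℕ) : D.δ k ∈ S6 F := by
  unfold δ
  split_ifs
  · exact mem_ad.2 ((Frm.adj_smul ..).trans (congrArg _ (D.ad_mat _)))
  · exact one_mem _
theorem δ_vec {k : ℕ} (h : k < 5) (v : V3) (u : Fin 2 → F) : (D.δ k).val *ᵥ D.vec v u = (4 : F)⁻¹ • D.vec ((gm k).ap v) u := by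
  rw [δ, dif_pos h, smul_mulVec, mat_vec]
theorem ev_vec {W : List ℕ} (h : ∀ k ∈ W, k < 5) (v : V3) (u : Fin 2 → F) :
    (evA D.δ W).val *ᵥ D.vec v u = (4 : F)⁻¹ ^ W.length • D.vec (apw W v) u := by
  induction W generalizing v with
  | nil => simp [apw]
  | cons k W ih =>
    rw [evA_cons, mul_mv, D.δ_vec (h k (.head _)), mulVec_smul, ih fun j hj => h j (.tail _ hj), smul_smul, List.length_cons,
      pow_succ']
    rfl
theorem rels : Rels D.δ U33.Rl := fun W hW => Units.ext (D.ext_bs fun i u => by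
  rw [D.ev_vec (ckR W hW).1, V3.d_eq ((ckR W hW).2 i), vec_sc, smul_smul, Units.val_one, one_mulVec]
  push_cast
  rw [← mul_pow, inv_mul_cancel₀ D.h4, one_pow, one_smul])
theorem δ4 : D.δ 4 * D.δ 4 = -1 := Units.ext (D.ext_bs fun i u => by
  have := D.ev_vec (W := [4, 4]) (by decide) (bs i) u
  rw [evA_cons, evA_cons, evA_nil, one_mul, V3.d_eq (ckM.1 i), vec_sc, smul_smul] at this
  rw [this, Units.val_neg, Units.val_one, neg_mulVec, one_mulVec, ← neg_one_smul F (D.vec _ _)]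
  congr 1
  have := D.h4
  simp; field_simp; norm_num)
theorem v0 : D.vec (bs 0) 1 ≠ 0 := fun e => by simpa [vec, f3, bs, sd, φ_q1] using congrFun e (.inl 0)
theorem δ3 : D.δ 3 ≠ 1 := fun e => by
  have := D.δ_vec (k := 3) (by decide) (bs 0) 1
  rw [e, show (gm 3).ap (bs 0) = _ from V3.d_eq ckM.2.1, vec_sc, smul_smul, Units.val_one, one_mulVec, ← sub_eq_zero] at this
  nth_rw 1 [← one_smul F (D.vec _ _)] at this
  rw [← sub_smul, smul_eq_zero, or_iff_left D.v0] at this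
  refine D.h2 ?_
  have h4 := D.h4
  rw [← this]; push_cast; field_simp; norm_num

/-- the vectors on the 315 root planes -/
def Y : Set (V6 F) := {v | ∃ i < 315, ∃ u, D.vec (rt i) u = v}
variable [Fintype F]
/-- the stabiliser -/
def M : Subgroup (G6 F) where
  carrier := {g | g ∈ S6 F ∧ D.Y.MapsTo (g.val *ᵥ ·) D.Y}
  mul_mem' {a b} ha hb := ⟨mul_mem ha.1 hb.1, fun v hv => by beta_reduce; rw [mul_mv]; exact ha.2 (hb.2 hv)⟩
  one_mem' := ⟨one_mem _, fun v hv => by simpa using hv⟩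
  inv_mem' {a} ha := ⟨inv_mem ha.1, fun v hv => by
    obtain ⟨w, hw, rfl⟩ := (((Set.toFinite _).injOn_iff_bijOn_of_mapsTo ha.2).1 fun x _ y _ e => by
      rw [← inv_mv a x, show a.val *ᵥ x = _ from e, inv_mv]).surjOn hv
    beta_reduce; rwa [inv_mv]⟩
theorem δ_M {k : ℕ} (hk : k ∈ [0, 2, 3, 4]) : D.δ k ∈ D.M := ⟨D.δ_sp k, by
  rintro _ ⟨i, hi, u, rfl⟩
  obtain ⟨j, hj, q, e⟩ := ckY hk hi
  have := congrArg (D.vec · u) e
  simp only [vec_sc, vec_rm] at this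
  refine ⟨j, hj, ((4 : F)⁻¹ * 4⁻¹ * 4⁻¹) • D.φ q *ᵥ u, ?_⟩
  beta_reduce
  rw [D.δ_vec ((by decide : ∀ k ∈ [0, 2, 3, 4], k < 5) k hk), vec_smul, ← this, smul_smul]
  congr 1
  have := D.h4
  push_cast; field_simp; norm_num⟩
theorem neg_M : -1 ∈ D.M := D.δ4 ▸ mul_mem (D.δ_M (by decide)) (D.δ_M (by decide))
theorem M_ne (h3 : (3 : F) ≠ 0) (B : G6 F) : ¬ ∀ g ∈ S6 F, B * g * B⁻¹ ∈ D.M := fun h => by
  have r0 : D.vec (rt 0) 1 ≠ 0 := by
    rw [V3.d_eq ckM.2.2, vec_sc]; exact smul_ne_zero (by simpa using D.h4) D.v0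
  have := Fintype.card_le_of_surjective (fun p : Fin 315 × (Fin 2 → F) => (B⁻¹).val *ᵥ D.vec (rt p.1) p.2) fun w => by
    by_cases w0 : w = 0
    · exact ⟨(0, 0), by rw [w0, ← zero_smul F (0 : Fin 2 → F)]; simp only [vec_smul]; simp⟩
    obtain ⟨g, hg, rfl⟩ := tr2 (mv_ne B⁻¹ r0) w0
    obtain ⟨i, hi, u, e⟩ := (h g hg).2 ⟨0, by norm_num, 1, rfl⟩
    exact ⟨(⟨i, hi⟩, u), by simp only [e, mul_mv, inv_mv]⟩
  simp only [Fintype.card_pi, Finset.prod_const, Finset.card_univ, Fintype.card_sum, Fintype.card_fin, Fintype.card_prod] at this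
  have c := FiniteField.cast_card_eq_zero F
  have q1 := Fintype.one_lt_card (α := F)
  have q5 : Fintype.card F < 5 := by
    by_contra! a
    have := Nat.le_of_mul_le_mul_right ((pow_add _ 4 2).ge.trans this) (pow_pos (show 0 < Fintype.card F by omega) 2)
    have := Nat.pow_le_pow_left a 4
    omega
  interval_cases Fintype.card F
  exacts [D.h2 c, h3 c, D.h4 c]
end Pr
end

theorem u3b : U3b.{u} := fun F G _ _ _ H P π h h2 h3 ⟨E, _, _, hE, ⟨e⟩⟩ hH ⟨s, hs⟩ => by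
  obtain ⟨p, hp⟩ := CharP.exists F
  have : NeZero p := ⟨CharP.char_ne_zero_of_finite F p⟩
  obtain ⟨a, b, hab⟩ := CharP.sq_add_sq F p (-1)
  let D : Pr F := ⟨(1 + s) / 2, a, b, by field_simp; linear_combination -hs, by simpa [sq] using hab, h2⟩
  have i := ns F G P π h.toRq _ _ ⟨e⟩ (Cfsg.Agent.S2089.result 3 3 hE le_rfl (by omega) (by simp)) (by decide)
  let ε : Γ0 ≃* P := (LU33.equiv.some.trans (H11.psuCongr 3 3 (FiniteField.ringEquivOfCardEq (card_F9c.trans hE.symm)))).trans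
    (e.symm.trans (MulEquiv.ofBijective π ⟨i, h.sur⟩).symm)
  obtain ⟨f, f1, f2⟩ := U33.bound.exists_hom U33.rels U33.card D.rels
  have fM : f.range ≤ D.M := f2 ▸ gen_le.2 fun k hk => by
    interval_cases k
    exacts [D.δ_M (by decide), (iv_eq D.rels U33.ivc (k := 0) (by decide)).symm ▸ inv_mem (D.δ_M (k := 0) (by decide)),
      D.δ_M (by decide), D.δ_M (by decide)]
  have := U33.simple
  have fi : Function.Injective f := (MonoidHom.ker_eq_bot_iff f).1 ((f.normal_ker.eq_bot_or_eq_top).resolve_right fun t =>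
    D.δ3 ((f1 3 (by decide)).symm.trans (t.ge trivial)))
  have r : (P.subtype.comp ε.toMonoidHom).range = P := by
    rw [MonoidHom.range_comp, MonoidHom.range_eq_top.2 ε.surjective, ← MonoidHom.range_eq_map, Subgroup.range_subtype]
  obtain ⟨B, hB⟩ := te2 (P.subtype.comp ε.toMonoidHom) f (r.symm ▸ h.top) (tr_eq h2 h3 _ _ (P.subtype_injective.comp ε.injective) fi
    (fun x => h.sp (ε x).2) fun x => (fM ⟨x, rfl⟩).1)
  have k : ∀ x ∈ P, B * x * B⁻¹ ∈ D.M := fun x hx => by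
    obtain ⟨y, rfl⟩ := r.ge hx
    exact hB y ▸ fM ⟨y, rfl⟩
  rcases nm F G H P π h D.M (J _ F) B (fun z => by simpa [J] using congrFun (congrFun z (.inr 0)) (.inl 0))
    (fun m hm => mem_J.1 hm.1) (fun x hx => (hH x hx).elim (k x) fun n => by
      simpa using mul_mem D.neg_M (k _ n)) with c | c
  · have q : (B⁻¹ * D.δ 4 * B) * (B⁻¹ * D.δ 4 * B) = -1 := by
      rw [← inv_inv B, inv_inv B⁻¹, conj_mul, D.δ4]; simp
    have n : (-1 : G6 F) ∈ P := (hH _ (c _ (D.δ_M (k := 4) (by decide)))).elim (fun m => q ▸ mul_mem m m)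
      fun m => by simpa only [neg_mul_neg, q] using mul_mem m m
    have := congrArg (fun z : P => z.1.val (.inl 0) (.inl 0)) (i (((h.ker ⟨_, n⟩).2 (.inr rfl)).trans (map_one π).symm))
    simp at this
    exact h2 (by linear_combination -this)
  · exact D.M_ne h3 B c

end H3.S6
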