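import Cfsg.Agent.H15.SRG

/-! The strongly regular graph with parameters (77, 16, 0, 4). -/

set_option linter.unusedSectionVars false

open Cfsg H15 Finset SimpleGraph

namespace H3.SG

variable {V : Type*} [Fintype V] [DecidableEq V] {G : SimpleGraph V} [DecidableRel G.Adj]
  (h : G.IsSRGWith 77 16 0 4) {a u x y z : V} {L M P Q S : Finset V}

/-- weighted number of neighbours -/
def nb (G : SimpleGraph V) [DecidableRel G.Adj] (f : V → ℤ) (z : V) : ℤ := ∑ y, if G.Adj z y then f y else 0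

/-- indicator function -/
def ind (S : Finset V) (y : V) : ℤ := if y ∈ S then 1 else 0

theorem nb_ind (S : Finset V) (z : V) : nb G (ind S) z = #(S.filter (G.Adj z)) := by
  simp only [nb, ind, ← ite_and, sum_boole]; congr 2; ext; simp [and_comm]

theorem sum_ind (S : Finset V) (f : V → ℤ) : ∑ y, ind S y * f y = ∑ y ∈ S, f y := by simp [ind]

/-- common neighbours -/
def cn (G : SimpleGraph V) [DecidableRel G.Adj] (a u : V) : Finset V := univ.filter fun x => G.Adj a x ∧ G.Adj u x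

/-- vertices not adjacent to `a`, `u` -/
def rs (G : SimpleGraph V) [DecidableRel G.Adj] (a u : V) : Finset V :=
  univ.filter fun x => x ≠ a ∧ x ≠ u ∧ ¬ G.Adj a x ∧ ¬ G.Adj u x

def dd (G : SimpleGraph V) [DecidableRel G.Adj] (a u : V) : Finset V :=
  (rs G a u).filter fun x => #((cn G a u).filter (G.Adj x)) = 0

def ln (G : SimpleGraph V) [DecidableRel G.Adj] (a u : V) : Finset V := insert a (insert u (dd G a u))

theorem mem_cn : x ∈ cn G a u ↔ G.Adj a x ∧ G.Adj u x := by simp [cn]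
theorem mem_rs : x ∈ rs G a u ↔ x ≠ a ∧ x ≠ u ∧ ¬ G.Adj a x ∧ ¬ G.Adj u x := by simp [rs]
theorem mem_dd : x ∈ dd G a u ↔ x ∈ rs G a u ∧ ∀ c, G.Adj a c → G.Adj u c → ¬ G.Adj x c := by
  simp [dd, mem_cn]

include h

theorem sum_nb (f : V → ℤ) : ∑ z, nb G f z = 16 * ∑ y, f y := by
  simp only [nb]
  rw [sum_comm, mul_sum]
  exact sum_congr rfl fun y _ => by simp only [G.adj_comm _ y, ← sum_filter, sum_const, srg_deg h]; simp

theorem sum_sq (f : V → ℤ) : ∑ z, nb G f z ^ 2 =
    12 * ∑ y, f y ^ 2 - 4 * ∑ y, f y * nb G f y + 4 * (∑ y, f y) ^ 2 := by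
  have k : ∀ y y', (∑ z, (if G.Adj z y then f y else 0) * if G.Adj z y' then f y' else 0) =
      12 * (if y = y' then f y * f y' else 0) - 4 * (f y * if G.Adj y y' then f y' else 0) + 4 * (f y * f y') :=
    fun y y' => by
      rw [sum_congr rfl (g := fun z => if G.Adj y z ∧ G.Adj y' z then f y * f y' else 0) fun z _ => by
        simp only [G.adj_comm z y, G.adj_comm z y']; split_ifs <;> simp_all, ← sum_filter, sum_const]
      by_cases e : y = y'
      · subst e; simp [srg_deg h]; ring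
      by_cases e' : G.Adj y y'
      · simp [e, e', srg_adj h e']
      · simp [e, e', srg_nadj h e e']
  simp only [nb, sq, sum_mul_sum]
  rw [sum_comm, sum_congr rfl fun y _ => by rw [sum_comm, sum_congr rfl fun y' _ => k y y']]
  simp only [sum_add_distrib, sum_sub_distrib, ← mul_sum, sum_ite_eq, mem_univ, if_true]

theorem sum_co (hS : ∀ x ∈ S, ∀ y ∈ S, ¬ G.Adj x y) : ∑ z, (#(S.filter (G.Adj z)) : ℤ) = 16 * #S ∧
    ∑ z, (#(S.filter (G.Adj z)) : ℤ) ^ 2 = 12 * #S + 4 * #S ^ 2 := by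
  have s1 := sum_nb h (ind S)
  have s2 := sum_sq h (ind S)
  simp only [sq (ind _ _), sum_ind, nb_ind] at s1 s2
  rw [sum_eq_zero (s := S) (f := fun x => (#(S.filter (G.Adj x)) : ℤ)) fun x hx => by
    simp [filter_false_of_mem (hS x hx)]] at s2
  simpa [ind] using And.intro s1 s2

theorem card_cn4 (e : a ≠ u) (e' : ¬ G.Adj a u) : #(cn G a u) = 4 := srg_nadj h e e'

theorem cnt (e : a ≠ u) (e' : ¬ G.Adj a u) :
    ∑ x ∈ rs G a u, ((#((cn G a u).filter (G.Adj x)) : ℤ) - 1) * (#((cn G a u).filter (G.Adj x)) - 2) = 6 := by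
  have c := card_cn4 h e e'
  have z : ∀ x, G.Adj a x ∨ G.Adj u x → #((cn G a u).filter (G.Adj x)) = 0 := fun x hx =>
    card_eq_zero.2 (filter_eq_empty_iff.2 fun c hc => hx.elim (srg_tri h · (mem_cn.1 hc).1)
      (srg_tri h · (mem_cn.1 hc).2))
  obtain ⟨s1, s2⟩ := sum_co h (S := cn G a u) fun x hx y hy => srg_tri h (mem_cn.1 hx).1 (mem_cn.1 hy).1
  rw [c] at s1 s2
  have s3 : ∑ x, ((#((cn G a u).filter (G.Adj x)) : ℤ) - 1) * (#((cn G a u).filter (G.Adj x)) - 2) = 74 := by
    rw [sum_congr rfl (g := fun x => (#((cn G a u).filter (G.Adj x)) : ℤ) ^ 2 -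
      3 * #((cn G a u).filter (G.Adj x)) + 2) fun _ _ => by ring]
    simp [sum_add_distrib, ← mul_sum, s1, s2, h.card]
  have s4 := card_union_add_card_inter (univ.filter (G.Adj a)) (univ.filter (G.Adj u))
  rw [srg_deg h, srg_deg h, ← filter_and, ← cn, c] at s4
  rw [show (univ : Finset V) = insert a (insert u ((univ.filter (G.Adj a) ∪ univ.filter (G.Adj u)) ∪ rs G a u)) by
    ext; simp [mem_rs]; tauto, sum_insert (by simp [mem_rs, e, mt G.adj_symm e']),
    sum_insert (by simp [mem_rs, e']), sum_union (disjoint_left.2 fun x => by simp [mem_rs]; tauto),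
    filter_true_of_mem fun _ k => (mem_cn.1 k).1, filter_true_of_mem fun _ k => (mem_cn.1 k).2, c,
    sum_congr rfl fun x hx => by rw [z x (by simpa using hx)], sum_const] at s3
  simp at s3; omega

theorem le2 (e : a ≠ u) (e' : ¬ G.Adj a u) (hx : x ∈ rs G a u) : #((cn G a u).filter (G.Adj x)) ≤ 2 := by
  by_contra! k
  have d3 : #(dd G a u) ≤ 3 := by
    have := (sum_le_sum_of_subset_of_nonneg (filter_subset _ _ : dd G a u ⊆ _) fun x _ _ => by
      rcases (by omega : #((cn G a u).filter (G.Adj x)) ≤ 1 ∨ 2 ≤ #((cn G a u).filter (G.Adj x))) with k | k <;>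
        nlinarith).trans (cnt h e e').le
    rw [sum_congr rfl fun x hx => by rw [(mem_filter.1 hx).2], sum_const, ← dd] at this
    simp at this; omega
  obtain ⟨x1, x2, x3, x4⟩ := mem_rs.1 hx
  have c1 := card_union_add_card_inter (cn G x a) (cn G x u)
  rw [card_cn4 h x1 (mt G.adj_symm x3), card_cn4 h x2 (mt G.adj_symm x4),
    show cn G x a ∩ cn G x u = (cn G a u).filter (G.Adj x) by ext; simp [mem_cn]; tauto] at c1
  have c2 := card_filter_add_card_filter_not (s := cn G a u) (G.Adj x)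
  rw [card_cn4 h e e'] at c2
  have c3 : #(((cn G a u).filter (¬ G.Adj x ·)).biUnion (cn G x)) ≤ #((cn G a u).filter (¬ G.Adj x ·)) * 4 :=
    card_biUnion_le_card_mul _ _ _ fun c hc => (card_cn4 h (by
      rintro rfl; exact x3 (mem_cn.1 (mem_filter.1 hc).1).1) (mem_filter.1 hc).2).le
  have c4 : univ.filter (G.Adj x) ⊆ (cn G x a ∪ cn G x u) ∪ dd G a u ∪
      ((cn G a u).filter (¬ G.Adj x ·)).biUnion (cn G x) := fun y hy => by
    have hy := (mem_filter.1 hy).2
    simp only [mem_union, mem_cn, mem_dd, mem_rs, mem_biUnion, mem_filter, hy, true_and]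
    by_contra! k
    obtain ⟨c, k1, k2, k3⟩ := k.1.2 ⟨by rintro rfl; exact x3 hy.symm, by rintro rfl; exact x4 hy.symm, k.1.1⟩
    exact k.2 c ⟨⟨k1, k2⟩, srg_tri h hy.symm k3⟩ k3.symm
  have c5 := (card_le_card c4).trans ((card_union_le _ _).trans (Nat.add_le_add_right (card_union_le _ _) _))
  rw [srg_deg h] at c5
  omega

theorem card_dd (e : a ≠ u) (e' : ¬ G.Adj a u) : #(dd G a u) = 3 := by
  have := cnt h e e'
  rw [← sum_filter_add_sum_filter_not _ fun x => #((cn G a u).filter (G.Adj x)) = 0, ← dd,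
    sum_congr rfl fun x hx => by rw [(mem_filter.1 hx).2], sum_const, sum_eq_zero fun x hx => by
      have := le2 h e e' (mem_filter.1 hx).1
      have := (mem_filter.1 hx).2
      rcases (by omega : #((cn G a u).filter (G.Adj x)) = 1 ∨ #((cn G a u).filter (G.Adj x)) = 2) with k | k <;>
        simp [k]] at this
  simp at this; omega

/-- the linear relation -/
theorem rel (e : a ≠ u) (e' : ¬ G.Adj a u) (z : V) :
    3 * (if G.Adj z a then 1 else 0) + 3 * (if G.Adj z u then 1 else 0) + 2 * (#((cn G a u).filter (G.Adj z)) : ℤ) -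
      #((dd G a u).filter (G.Adj z)) = 2 + 2 * (3 * ind {a} z + 3 * ind {u} z + 2 * ind (cn G a u) z -
        ind (dd G a u) z) := by
  set f : V → ℤ := fun z => 3 * ind {a} z + 3 * ind {u} z + 2 * ind (cn G a u) z - ind (dd G a u) z with hf
  have k : ∀ z, nb G f z = 3 * (if G.Adj z a then 1 else 0) + 3 * (if G.Adj z u then 1 else 0) +
      2 * (#((cn G a u).filter (G.Adj z)) : ℤ) - #((dd G a u).filter (G.Adj z)) := fun z => by
    rw [← nb_ind, ← nb_ind]
    have : ∀ a, (if G.Adj z a then 1 else 0) = nb G (ind {a}) z := fun a => by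
      rw [nb_ind, filter_singleton]; split_ifs <;> simp
    simp only [this a, this u, nb, f, mul_sum, ← sum_add_distrib, ← sum_sub_distrib]
    exact sum_congr rfl fun y _ => by split_ifs <;> simp
  have s : ∀ g : V → ℤ, ∑ y, f y * g y = 3 * g a + 3 * g u + 2 * ∑ y ∈ cn G a u, g y - ∑ y ∈ dd G a u, g y :=
    fun g => by simp only [f, add_mul, sub_mul, mul_assoc, sum_add_distrib, sum_sub_distrib, ← mul_sum, sum_ind,
      sum_singleton]
  have c := card_cn4 h e e'
  have d := card_dd h e e'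
  have m : ∀ x ∈ dd G a u, x ≠ a ∧ x ≠ u ∧ ¬ G.Adj a x ∧ ¬ G.Adj u x := fun x hx => mem_rs.1 (mem_dd.1 hx).1
  have s1 : ∑ y, f y = 11 := by simpa [c, d] using s fun _ => 1
  have s2 : ∑ y, f y ^ 2 = 37 := by
    simp only [sq, s]
    rw [sum_congr rfl (g := fun _ => 2) fun x hx => by
      have := mem_cn.1 hx
      simp [f, ind, hx, this.1.ne', this.2.ne', mt (m x · |>.2.2.1) (not_not.2 this.1)],
      sum_congr (s₁ := dd G a u) rfl (g := fun _ => -1) fun x hx => by simp [f, ind, hx, m x hx, mem_cn]]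
    simp [f, ind, c, d, e, e.symm, mem_cn, mem_dd, mem_rs]
  have s3 : 96 ≤ ∑ y, f y * nb G f y := by
    have z : ∀ x, G.Adj a x ∨ G.Adj u x → #((cn G a u).filter (G.Adj x)) = 0 := fun x hx =>
      card_eq_zero.2 (filter_eq_empty_iff.2 fun c hc => hx.elim (srg_tri h · (mem_cn.1 hc).1)
        (srg_tri h · (mem_cn.1 hc).2))
    rw [s, sum_congr rfl (g := fun _ => 6) fun x hx => by
      have := mem_cn.1 hx
      rw [k, z x (.inl this.1), card_eq_zero.2 (filter_eq_empty_iff.2 fun y hy e =>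
        (mem_dd.1 hy).2 x this.1 this.2 e.symm)]
      simp [this.1.symm, this.2.symm], k, k, filter_true_of_mem fun _ k => (mem_cn.1 k).1,
      filter_true_of_mem fun _ k => (mem_cn.1 k).2, filter_false_of_mem fun _ k => (m _ k).2.2.1,
      filter_false_of_mem fun _ k => (m _ k).2.2.2]
    have : ∑ y ∈ dd G a u, nb G f y ≤ 0 := sum_nonpos fun x hx => by
      simp [k, (mem_filter.1 hx).2, mt G.adj_symm (m x hx).2.2.1, mt G.adj_symm (m x hx).2.2.2]
    simp [c, e', mt G.adj_symm e']; omega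
  have s4 : ∑ z, (nb G f z - (2 + 2 * f z)) ^ 2 ≤ 0 := by
    rw [sum_congr rfl (g := fun z => nb G f z ^ 2 - 4 * nb G f z - 4 * (f z * nb G f z) + 4 + 8 * f z + 4 * f z ^ 2)
      fun _ _ => by ring]
    simp only [sum_add_distrib, sum_sub_distrib, ← mul_sum, sum_sq h, sum_nb h, s1, s2, sum_const, card_univ, h.card]
    simp; omega
  rw [← k]
  exact sub_eq_zero.1 (pow_eq_zero_iff two_ne_zero |>.1 (le_antisymm ((single_le_sum (f := fun z =>
    (nb G f z - (2 + 2 * f z)) ^ 2) (fun _ _ => sq_nonneg _) (mem_univ z)).trans s4) (sq_nonneg _)))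

omit h in
theorem n_ln (z : V) (e : a ≠ u) : (#((ln G a u).filter (G.Adj z)) : ℤ) =
    (if G.Adj z a then 1 else 0) + (if G.Adj z u then 1 else 0) + #((dd G a u).filter (G.Adj z)) := by
  rw [ln, filter_insert, filter_insert]
  split_ifs <;> simp [card_insert_of_notMem, mem_dd, mem_rs, e] <;> ring

structure Ln (G : SimpleGraph V) [DecidableRel G.Adj] (L : Finset V) : Prop where
  card : #L = 5
  co : ∀ x ∈ L, ∀ y ∈ L, ¬ G.Adj x y
  two : ∀ z, #(L.filter (G.Adj z)) = 0 ∨ #(L.filter (G.Adj z)) = 2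

theorem ln_Ln (e : a ≠ u) (e' : ¬ G.Adj a u) : Ln G (ln G a u) := by
  have m : ∀ x ∈ dd G a u, x ≠ a ∧ x ≠ u ∧ ¬ G.Adj a x ∧ ¬ G.Adj u x := fun x hx => mem_rs.1 (mem_dd.1 hx).1
  have z : ∀ x, G.Adj x a ∨ G.Adj x u → #((cn G a u).filter (G.Adj x)) = 0 := fun x hx =>
    card_eq_zero.2 (filter_eq_empty_iff.2 fun c hc => hx.elim (fun k => srg_tri h k.symm (mem_cn.1 hc).1)
      fun k => srg_tri h k.symm (mem_cn.1 hc).2)
  have k : ∀ x ∈ ln G a u, #((ln G a u).filter (G.Adj x)) = 0 := fun x hx => by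
    have k1 := n_ln (G := G) x e
    have k2 := rel h e e' x
    simp only [ln, mem_insert] at hx
    rcases hx with rfl | rfl | hx
    · simpa [e', filter_false_of_mem fun _ k => (m _ k).2.2.1] using k1
    · simpa [mt G.adj_symm e', filter_false_of_mem fun _ k => (m _ k).2.2.2] using k1
    · simp only [ind, hx, m x hx, mem_singleton, mem_cn, (mem_filter.1 hx).2, mt G.adj_symm (m x hx).2.2.1,
        mt G.adj_symm (m x hx).2.2.2, if_true, if_false, false_and] at k1 k2
      omega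
  refine ⟨?_, fun x hx y hy => filter_eq_empty_iff.1 (card_eq_zero.1 (k x hx)) hy, fun x => ?_⟩
  · rw [ln, card_insert_of_notMem (by simp [mem_dd, mem_rs, e]), card_insert_of_notMem (by simp [mem_dd, mem_rs]),
      card_dd h e e']
  by_cases hx : x ∈ ln G a u
  · exact .inl (k x hx)
  have k1 := n_ln (G := G) x e
  have k2 := rel h e e' x
  have k3 := z x
  have k4 := card_dd h e e' ▸ card_filter_le (dd G a u) (G.Adj x)
  simp only [ln, mem_insert, not_or] at hx
  simp only [ind, hx, mem_singleton, mem_cn, if_false, G.adj_comm _ x] at k2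
  by_cases e1 : G.Adj x a <;> by_cases e2 : G.Adj x u <;> simp only [e1, e2, if_true, if_false, and_self, or_self,
    false_and, or_true, true_or, forall_const, false_imp_iff, and_false] at k1 k2 k3 <;> omega

theorem Ln.eq (hL : Ln G L) (ha : a ∈ L) (hu : u ∈ L) (e : a ≠ u) : L = ln G a u := by
  refine eq_of_subset_of_card_le (fun x hx => ?_) (by rw [hL.card, (ln_Ln h e (hL.co a ha u hu)).card])
  simp only [ln, mem_insert, mem_dd, mem_rs, or_iff_not_imp_left]
  refine fun e1 e2 => ⟨⟨e1, e2, hL.co a ha x hx, hL.co u hu x hx⟩, fun c c1 c2 c3 => ?_⟩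
  have := card_le_card (s := {a, u, x}) (t := L.filter (G.Adj c)) (by
    simp [insert_subset_iff, ha, hu, hx, c1.symm, c2.symm, c3.symm])
  rw [card_eq_three.2 ⟨a, u, x, e, Ne.symm e1, Ne.symm e2, rfl⟩] at this
  have := hL.two c
  omega

theorem Ln.one (hL : Ln G L) (ha : a ∈ L) (hu : u ∈ L) (e : a ≠ u) (hz : z ∉ L) (e1 : ¬ G.Adj z a) :
    #(L.filter (G.Adj z)) = 0 ↔ #(univ.filter fun c => G.Adj a c ∧ G.Adj u c ∧ G.Adj z c) = 1 := by
  have e' := hL.co a ha u hu
  obtain rfl := hL.eq h ha hu e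
  have k1 := n_ln (G := G) z e
  have k2 := rel h e e' z
  have k3 : G.Adj z u → #((cn G a u).filter (G.Adj z)) = 0 := fun k =>
    card_eq_zero.2 (filter_eq_empty_iff.2 fun c hc => srg_tri h k.symm (mem_cn.1 hc).2)
  simp only [ln, mem_insert, not_or] at hz
  simp only [ind, hz, mem_singleton, mem_cn, if_false, G.adj_comm _ z, e1, false_and] at k1 k2
  rw [show (univ.filter fun c => G.Adj a c ∧ G.Adj u c ∧ G.Adj z c) = (cn G a u).filter (G.Adj z) by
    ext; simp [mem_cn, and_assoc]]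
  by_cases e2 : G.Adj z u <;> simp only [e2, if_true, if_false, forall_const] at k1 k2 k3 <;> omega

theorem dich (hL : Ln G L) (hM : Ln G M) (h1 : a ∈ L) (h2 : a ∈ M) (h3 : z ∈ M) (h4 : z ∉ L)
    (h5 : ∀ l ∈ L, ¬ G.Adj z l) : ∀ l ∈ L, ∀ y ∈ M, ¬ G.Adj l y := fun l hl => by
  by_cases e : a = l
  · exact hM.co l (e ▸ h2)
  have k := (hL.one h h1 hl e h4 (h5 a h1)).1 (card_eq_zero.2 (filter_eq_empty_iff.2 h5))
  simp only [and_comm (a := G.Adj l _)] at k
  exact filter_eq_empty_iff.1 (card_eq_zero.1 ((hM.one h h2 h3 (fun e => h4 (e ▸ h1)) (fun e' => h4 (by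
    rwa [hL.eq h h1 hl e, ← hM.eq h h2 e' e])) (hL.co l hl a h1)).2 k))

structure Pl (G : SimpleGraph V) [DecidableRel G.Adj] (P : Finset V) : Prop where
  card : #P = 21
  co : ∀ x ∈ P, ∀ y ∈ P, ¬ G.Adj x y

theorem Pl.six (hP : Pl G P) (hz : z ∉ P) : #(P.filter (G.Adj z)) = 6 := by
  have z0 : ∀ x ∈ P, #(P.filter (G.Adj x)) = 0 := fun x hx => card_eq_zero.2 (filter_eq_empty_iff.2 (hP.co x hx))
  obtain ⟨s1, s2⟩ := sum_co h hP.co
  rw [hP.card] at s1 s2
  have s3 : ∑ x, ((#(P.filter (G.Adj x)) : ℤ) - 6) ^ 2 = 756 := by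
    rw [sum_congr rfl (g := fun x => (#(P.filter (G.Adj x)) : ℤ) ^ 2 - 12 * #(P.filter (G.Adj x)) + 36)
      fun _ _ => by ring]
    simp [sum_add_distrib, ← mul_sum, s1, s2, h.card]
  have s4 := (sum_le_sum_of_subset_of_nonneg (subset_univ (insert z P)) fun _ _ _ => sq_nonneg _).trans s3.le
  rw [sum_insert hz, sum_congr rfl fun x hx => by rw [z0 x hx], sum_const, hP.card] at s4
  simp at s4; omega

theorem Pl.sub (hP : Pl G P) (ha : a ∈ P) (hu : u ∈ P) (e : a ≠ u) : ln G a u ⊆ P := by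
  have e' := hP.co a ha u hu
  have c := card_cn4 h e e'
  have s1 : ∑ x ∈ P, #((cn G a u).filter (G.Adj x)) = ∑ x ∈ cn G a u, #(P.filter (G.Adj · x)) :=
    sum_card_bipartiteAbove_eq_sum_card_bipartiteBelow G.Adj
  have hu' := mem_erase.2 ⟨e.symm, hu⟩
  rw [sum_congr (s₁ := cn G a u) rfl (g := fun _ => 6) fun x hx => by
    simpa only [G.adj_comm _ x] using hP.six h fun k => hP.co a ha x k (mem_cn.1 hx).1, ← add_sum_erase _ _ ha,
    ← add_sum_erase _ _ hu', filter_true_of_mem fun _ k => (mem_cn.1 k).1,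
    filter_true_of_mem fun _ k => (mem_cn.1 k).2, sum_const, c,
    ← sum_filter_add_sum_filter_not _ fun x => #((cn G a u).filter (G.Adj x)) = 0] at s1
  have s2 := card_nsmul_le_sum (((P.erase a).erase u).filter fun x => ¬ #((cn G a u).filter (G.Adj x)) = 0) _ 1
    fun x hx => Nat.pos_of_ne_zero (mem_filter.1 hx).2
  have s3 := card_filter_add_card_filter_not (s := (P.erase a).erase u) fun x => #((cn G a u).filter (G.Adj x)) = 0
  rw [card_erase_of_mem hu', card_erase_of_mem ha, hP.card] at s3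
  have s4 : ((P.erase a).erase u).filter (fun x => #((cn G a u).filter (G.Adj x)) = 0) = dd G a u :=
    eq_of_subset_of_card_le (filter_subset_filter _ fun x hx => by
      simp only [mem_erase] at hx
      exact mem_rs.2 ⟨hx.2.1, hx.1, hP.co a ha x hx.2.2, hP.co u hu x hx.2.2⟩) (by
      rw [card_dd h e e']; simp only [smul_eq_mul] at s1 s2; omega)
  simp only [ln, insert_subset_iff, ha, hu, true_and, ← s4]
  exact (filter_subset _ _).trans ((erase_subset _ _).trans (erase_subset _ _))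

theorem Ln.zs (hL : Ln G L) : #(univ.filter fun z => z ∉ L ∧ ∀ l ∈ L, ¬ G.Adj z l) = 32 := by
  have s1 := (sum_co h hL.co).1
  have s2 := card_filter_add_card_filter_not (s := univ) fun x => #(L.filter (G.Adj x)) = 0
  rw [← sum_filter_add_sum_filter_not _ fun x => #(L.filter (G.Adj x)) = 0, sum_eq_zero fun x hx => by
    simp [(mem_filter.1 hx).2], sum_congr rfl (g := fun _ => 2) fun x hx => by
      simp [(hL.two x).resolve_left (mem_filter.1 hx).2], sum_const, hL.card] at s1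
  rw [card_univ, h.card, show (univ.filter fun x => #(L.filter (G.Adj x)) = 0) =
    L ∪ univ.filter fun z => z ∉ L ∧ ∀ l ∈ L, ¬ G.Adj z l by
      ext x; have := hL.co x; simp; tauto, card_union_of_disjoint (disjoint_left.2 (by simp +contextual)),
      hL.card] at s2
  simp only [nsmul_eq_mul] at s1
  omega

theorem Ln.plane (hL : Ln G L) (hz : z ∉ L) (e : ∀ l ∈ L, ¬ G.Adj z l) : Pl G (L.biUnion (ln G z)) := by
  have k : ∀ l ∈ L, Ln G (ln G z l) := fun l hl => ln_Ln h (by rintro rfl; exact hz hl) (e l hl)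
  have m1 : ∀ l, z ∈ ln G z l := fun l => by simp [ln]
  have m2 : ∀ l, l ∈ ln G z l := fun l => by simp [ln]
  have m3 : ∀ l ∈ L, ∀ l' ∈ L, l ≠ l' → l' ∉ ln G z l := fun l hl l' hl' n n' => hz (by
    rw [hL.eq h hl hl' n, ← (k l hl).eq h (m2 l) n' n]; exact m1 l)
  refine ⟨?_, fun x hx y hy => ?_⟩
  · obtain ⟨l, hl⟩ := card_pos.1 (hL.card ▸ (by decide : 0 < 5))
    rw [← card_erase_add_one (mem_biUnion.2 ⟨l, hl, m1 l⟩), erase_biUnion, card_biUnion, sum_congr rfl
      (g := fun _ => 4) fun l hl => by rw [card_erase_of_mem (m1 l), (k l hl).card], sum_const, hL.card]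
    · rfl
    refine fun l hl l' hl' n => disjoint_left.2 fun y h1 h2 => m3 l hl l' hl' n ?_
    rw [mem_erase] at h1 h2
    rw [(k l hl).eq h h1.2 (m1 l) h1.1, ← (k l' hl').eq h h2.2 (m1 l') h1.1]; exact m2 l'
  obtain ⟨l, hl, hx⟩ := mem_biUnion.1 hx
  obtain ⟨l', hl', hy⟩ := mem_biUnion.1 hy
  by_cases n : l = l'
  · exact (k l hl).co x hx y (n ▸ hy)
  exact dich h (k l hl) (k l' hl') (m1 l) (m1 l') (m2 l') (m3 l hl l' hl' n)
    (dich h hL (k l hl) hl (m2 l) (m1 l) hz e l' hl') x hx y hy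

/-- the planes -/
def pls (G : SimpleGraph V) [DecidableRel G.Adj] : Finset (Finset V) :=
  univ.filter fun P => #P = 21 ∧ ∀ x ∈ P, ∀ y ∈ P, ¬ G.Adj x y

omit h in
theorem mem_pls : P ∈ pls G ↔ Pl G P := by
  simp only [pls, mem_filter, mem_univ, true_and]; exact ⟨fun k => ⟨k.1, k.2⟩, fun k => ⟨k.1, k.2⟩⟩

theorem pls_two (e : a ≠ u) (e' : ¬ G.Adj a u) : #((pls G).filter fun P => a ∈ P ∧ u ∈ P) = 2 := by
  have hL := ln_Ln h e e'
  have := card_mul_eq_card_mul (s := (pls G).filter fun P => a ∈ P ∧ u ∈ P) (m := 16) (n := 1)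
    (t := univ.filter fun z => z ∉ ln G a u ∧ ∀ l ∈ ln G a u, ¬ G.Adj z l) (fun P z => z ∈ P) (fun P hP => by
      obtain ⟨h1, h2, h3⟩ := mem_filter.1 hP
      have h1 := mem_pls.1 h1
      have h4 := h1.sub h h2 h3 e
      rw [show 16 = 21 - 5 from rfl, ← h1.card, ← hL.card, ← card_sdiff_of_subset h4]
      congr 1; ext z
      simp only [mem_bipartiteAbove, mem_filter, mem_univ, true_and, mem_sdiff]
      exact ⟨fun k => ⟨k.2, k.1.1⟩, fun k => ⟨⟨k.2, fun l hl => h1.co z k.1 l (h4 hl)⟩, k.1⟩⟩) fun z hz => by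
      obtain ⟨h1, h2⟩ := (mem_filter.1 hz).2
      have h3 := hL.plane h h1 h2
      refine card_eq_one.2 ⟨(ln G a u).biUnion (ln G z), eq_singleton_iff_unique_mem.2 ⟨?_, fun P hP => ?_⟩⟩
      · exact (mem_bipartiteBelow _).2 ⟨mem_filter.2 ⟨mem_pls.2 h3, mem_biUnion.2 ⟨a, by simp [ln]⟩,
          mem_biUnion.2 ⟨u, by simp [ln]⟩⟩, mem_biUnion.2 ⟨u, by simp [ln]⟩⟩
      simp only [mem_bipartiteBelow, mem_filter, mem_pls] at hP
      refine (eq_of_subset_of_card_le (biUnion_subset.2 fun l hl => hP.1.1.sub h hP.2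
        (hP.1.1.sub h hP.1.2.1 hP.1.2.2 e hl) ?_) (by rw [h3.card, hP.1.1.card])).symm
      rintro rfl; exact h1 hl
  rw [hL.zs h] at this
  omega

theorem pls_six (a : V) : #((pls G).filter fun P => a ∈ P) = 6 := by
  have := card_mul_eq_card_mul (s := (pls G).filter fun P => a ∈ P) (m := 20) (n := 2)
    (t := univ \ insert a (univ.filter (G.Adj a))) (fun P z => z ∈ P) (fun P hP => by
      obtain ⟨h1, h2⟩ := mem_filter.1 hP
      have h1 := mem_pls.1 h1
      rw [show 20 = 21 - 1 from rfl, ← h1.card, ← card_erase_of_mem h2]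
      congr 1; ext z
      have := h1.co a h2 z
      simp; tauto) fun z hz => by
      simp only [mem_sdiff, mem_insert, mem_filter, mem_univ, true_and, not_or] at hz
      rw [bipartiteBelow, filter_filter, pls_two h (Ne.symm hz.1) hz.2]
  rw [card_sdiff_of_subset (subset_univ _), card_insert_of_notMem (by simp), srg_deg h, card_univ, h.card] at this
  omega

theorem card_pls : #(pls G) = 22 := by
  have := card_mul_eq_card_mul (s := pls G) (m := 21) (n := 6) (t := univ) (fun P z => z ∈ P)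
    (fun P hP => by simp [bipartiteAbove, (mem_pls.1 hP).card]) fun z _ => pls_six h z
  rw [card_univ, h.card] at this
  omega

theorem design : ∃ B : Set (Finset (pls G)), IsSteinerSystem 3 6 B ∧ Nonempty (G ≃g blockGraph B) := by
  let blk : V → Finset (pls G) := fun c => univ.filter fun p => c ∈ p.1
  have cb : ∀ (q : Finset V → Prop) [DecidablePred q], #(univ.filter fun p : pls G => q p) = #((pls G).filter q) :=
    fun q _ => by rw [univ_eq_attach, filter_attach, card_map, card_attach]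
  have b6 : ∀ c, #(blk c) = 6 := fun c => (cb (c ∈ ·)).trans (pls_six h c)
  have b0 : ∀ c d, G.Adj c d → Disjoint (blk c) (blk d) := fun c d e => disjoint_left.2 fun p h1 h2 =>
    (mem_pls.1 p.2).co c (mem_filter.1 h1).2 d (mem_filter.1 h2).2 e
  have b2 : ∀ c d, c ≠ d → ¬ G.Adj c d → #(blk c ∩ blk d) = 2 := fun c d e e' => by
    rw [← filter_and, cb fun p => c ∈ p ∧ d ∈ p, pls_two h e e']
  have b3 : ∀ c d, 3 ≤ #(blk c ∩ blk d) → c = d := fun c d e => by
    by_contra hne
    by_cases e' : G.Adj c d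
    · rw [disjoint_iff_inter_eq_empty.1 (b0 c d e')] at e; simp at e
    · rw [b2 c d hne e'] at e; omega
  have bi : Function.Injective blk := fun c d e => b3 c d (by rw [e, inter_self, b6]; decide)
  refine ⟨Set.range blk, ⟨by rintro _ ⟨c, rfl⟩; exact b6 c, fun s hs => existsUnique_of_exists_of_unique ?_ ?_⟩,
    ⟨Equiv.ofInjective blk bi, fun {c d} => ?_⟩⟩
  · have : univ.biUnion (fun c => powersetCard 3 (blk c)) = powersetCard 3 univ := by
      refine eq_of_subset_of_card_le (biUnion_subset.2 fun c _ => powersetCard_mono (subset_univ _)) ?_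
      rw [card_biUnion, sum_congr rfl (g := fun _ => 20) fun c _ => by rw [card_powersetCard, b6 c]; rfl,
        card_powersetCard, card_univ, Fintype.card_coe, card_pls h, sum_const, card_univ, h.card]
      · decide +kernel
      refine fun c _ d _ e => disjoint_left.2 fun t h1 h2 => e (b3 c d ?_)
      rw [mem_powersetCard] at h1 h2
      exact h1.2 ▸ card_le_card (subset_inter h1.1 h2.1)
    obtain ⟨c, -, h1⟩ := mem_biUnion.1 (this ▸ mem_powersetCard.2 ⟨subset_univ s, hs⟩)
    exact ⟨_, ⟨c, rfl⟩, (mem_powersetCard.1 h1).1⟩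
  · rintro _ _ ⟨⟨c, rfl⟩, h1⟩ ⟨⟨d, rfl⟩, h2⟩
    rw [b3 c d (hs ▸ card_le_card (subset_inter h1 h2))]
  · rw [bg_adj, (Equiv.injective _).ne_iff]
    refine ⟨fun k => by_contra fun e => ?_, fun k => ⟨k.ne, b0 c d k⟩⟩
    have := b2 c d k.1 e
    rw [disjoint_iff_inter_eq_empty.1 (show Disjoint (blk c) (blk d) from k.2)] at this
    simp at this

end H3.SG
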